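import Cfsg.Agent.Lib.Helper14.TC3Stmt
import Cfsg.Agent.Lib.CT.NormOne
import Cfsg.Agent.Lib.CT.LinChar
import Cfsg.Agent.Lib.CT.Ops
import Cfsg.Agent.Lib.CT.Wedderburn

/-!
# S4460 piece H1 (helper67)
-/

set_option autoImplicit false

namespace Cfsg.Agent.Lib.Helper67.TC3H1

open Cfsg Cfsg.Agent.Lib.Helper14.TC3Stmt
open Cfsg.Agent.Lib.CT Cfsg.Agent.Lib.CT.Wedderburn
open scoped ComplexConjugate

universe u

theorem conj_irr {G : Type u} [Group G] [Finite G] {χ : G → ℂ} (h : IsIrrCharacter G χ) :
    IsIrrCharacter G (fun g => conj (χ g)) := by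
  have h1 := Ops.isIrrCharacter_inv_arg h
  have h2 : (fun g => χ g⁻¹) = fun g => conj (χ g) :=
    funext fun g => char_apply_inv (isCharacter_of_irr h) g
  rwa [h2] at h1

theorem main : H1.{u} := by
  intro G _ _ m n hdeg hcop hmn χ₁ χ₂ ψ h1 h2 hψ hne
  classical
  haveI := finite_irrCharacter G
  haveI : Fintype (IrrCharacter G) := Fintype.ofFinite _
  have hΘ : IsCharacter G ((χ₁ : G → ℂ) * (χ₂ : G → ℂ)) :=
    Ops.isCharacter_mul (isCharacter_of_irr χ₁.2) (isCharacter_of_irr χ₂.2)
  obtain ⟨a, ha, hexp⟩ := NormOne.exists_mult_sum hΘ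
  by_cases hlin : ∃ η : IrrCharacter G, a η ≠ 0 ∧ charDegree (η : G → ℂ) = 1
  · obtain ⟨η, hη0, hη1⟩ := hlin
    refine ⟨η, hη1, ?_⟩
    have hη1' : (η : G → ℂ) 1 = 1 := by
      rw [← char_natCast_charDegree (isCharacter_of_irr η.2), hη1]; simp
    have hξ : IsIrrCharacter G ((η : G → ℂ) * fun g => conj ((χ₁ : G → ℂ) g)) :=
      LinChar.isIrrCharacter_linear_mul (isCharacter_of_irr η.2) hη1' (conj_irr χ₁.2)
    have hinner : classInner (χ₂ : G → ℂ) ((η : G → ℂ) * fun g => conj ((χ₁ : G → ℂ) g))
        = a η := by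
      rw [← ha η]
      unfold classInner
      congr 1
      refine Finset.sum_congr rfl fun g _ => ?_
      simp only [Pi.mul_apply, map_mul, Complex.conj_conj]
      ring
    have hort := irr_orthonormal χ₂ ⟨_, hξ⟩
    rw [hinner] at hort
    by_cases heq : χ₂ = ⟨_, hξ⟩
    · intro g
      have := congrArg (fun t : IrrCharacter G => (t : G → ℂ) g) heq
      simpa using this
    · rw [if_neg heq] at hort
      exact absurd (by exact_mod_cast hort) hη0
  · exfalso
    rw [not_exists] at hlin
    have hm1 : 1 ≤ m := h1 ▸ irr_charDegree_pos χ₁.2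
    have hsum : m * m = ∑ η : IrrCharacter G, a η * charDegree (η : G → ℂ) := by
      have e := congrFun hexp 1
      rw [Finset.sum_apply] at e
      simp only [Pi.mul_apply, Pi.smul_apply, smul_eq_mul] at e
      rw [← char_natCast_charDegree (isCharacter_of_irr χ₁.2),
        ← char_natCast_charDegree (isCharacter_of_irr χ₂.2), h1, h2] at e
      have e2 : ((m * m : ℕ) : ℂ)
          = ((∑ η : IrrCharacter G, a η * charDegree (η : G → ℂ) : ℕ) : ℂ) := by
        push_cast
        rw [e]
        refine Finset.sum_congr rfl fun η _ => ?_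
        rw [char_natCast_charDegree (isCharacter_of_irr η.2)]
      exact_mod_cast e2
    have hterm : ∀ η : IrrCharacter G, a η * charDegree (η : G → ℂ) =
        (if charDegree (η : G → ℂ) = n then a η else 0) * n
          + (if charDegree (η : G → ℂ) = n then 0 else a η) * m := by
      intro η
      by_cases hn : charDegree (η : G → ℂ) = n
      · rw [if_pos hn, if_pos hn, hn]; ring
      · rw [if_neg hn, if_neg hn]
        by_cases h0 : a η = 0
        · rw [h0]; ring
        · have hd1 : charDegree (η : G → ℂ) ≠ 1 := fun h => hlin η ⟨h0, h⟩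
          rcases hdeg η with h | h | h
          · exact absurd h hd1
          · rw [h]; ring
          · exact absurd h hn
    rw [Finset.sum_congr rfl (fun η _ => hterm η), Finset.sum_add_distrib, ← Finset.sum_mul,
      ← Finset.sum_mul] at hsum
    have haψ : a ψ ≠ 0 := by
      intro h0
      apply hne
      have h5 := ha ψ
      rw [h0, Nat.cast_zero] at h5
      exact h5
    have hB1 : 1 ≤ ∑ η : IrrCharacter G, (if charDegree (η : G → ℂ) = n then a η else 0) := by
      have : (if charDegree (ψ : G → ℂ) = n then a ψ else 0)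
          ≤ ∑ η : IrrCharacter G, (if charDegree (η : G → ℂ) = n then a η else 0) :=
        Finset.single_le_sum
          (f := fun η : IrrCharacter G => (if charDegree (η : G → ℂ) = n then a η else 0))
          (fun _ _ => Nat.zero_le _) (Finset.mem_univ ψ)
      rw [if_pos hψ] at this
      omega
    generalize (∑ η : IrrCharacter G, (if charDegree (η : G → ℂ) = n then a η else 0)) = B
      at hsum hB1
    generalize (∑ η : IrrCharacter G, (if charDegree (η : G → ℂ) = n then 0 else a η)) = A
      at hsum
    have hdvd : m ∣ B := by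
      have h3 : m ∣ B * n := by
        have h4 : m ∣ B * n + A * m := ⟨m, hsum.symm⟩
        exact (Nat.dvd_add_left (Dvd.intro_left A rfl)).mp h4
      exact hcop.dvd_of_dvd_mul_right h3
    have hBm : m ≤ B := Nat.le_of_dvd (by omega) hdvd
    nlinarith

end Cfsg.Agent.Lib.Helper67.TC3H1
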