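import Mathlib
import Cfsg.Agent.Lib.Helper73.BG143Stmt

/-!
# S1432 / FROB: a Frobenius-type fixed point lemma

`X₂ ⋊ Q` acts on the abelian group `V ≠ 1`, `C_V(X₂) = 1`, every `c ≠ 1` of `Q` is fixed-point-free
on `X₂`, `(|V|, |X₂|) = 1`: then `C_V(Q) ≠ 1`.
-/

set_option autoImplicit false
universe u

namespace Cfsg.Agent.Lib.Helper67.BG143FROB

open Cfsg.Agent.Lib.Helper73.BG143Stmt
open scoped IsMulCommutative

section
variable {G : Type*} [Group G] (V : Subgroup G)

/-- conjugation by an element of the normalizer, as an endomorphism of `V` -/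
def cj (n : ↥(Subgroup.normalizer (V : Set G))) : ↥V →* ↥V where
  toFun v := ⟨(n : G) * v * (n : G)⁻¹, (Subgroup.mem_normalizer_iff.mp n.2 v).mp v.2⟩
  map_one' := by
    apply Subtype.ext
    simp
  map_mul' a b := by
    apply Subtype.ext
    simp [mul_assoc]

theorem cj_coe (n : ↥(Subgroup.normalizer (V : Set G))) (v : V) :
    ((cj V n v : V) : G) = (n : G) * v * (n : G)⁻¹ := rfl

theorem cj_mul (n₁ n₂ : ↥(Subgroup.normalizer (V : Set G))) (v : V) :
    cj V (n₁ * n₂) v = cj V n₁ (cj V n₂ v) := by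
  apply Subtype.ext
  simp [cj_coe, mul_assoc]

theorem cj_one (v : V) : cj V 1 v = v := by
  apply Subtype.ext
  simp [cj_coe]

/-- the norm of an element of `V` under a group `P` of operators without fixed points is `1` -/
theorem norm_eq_one (P : Subgroup G) [IsMulCommutative V] [Fintype P]
    (hP : P ≤ Subgroup.normalizer (V : Set G))
    (hC : V ⊓ Subgroup.centralizer (P : Set G) = ⊥) (w : V) :
    ∏ c : P, cj V (Subgroup.inclusion hP c) w = 1 := by
  obtain ⟨n, hn⟩ : ∃ n : V, n = ∏ c : P, cj V (Subgroup.inclusion hP c) w := ⟨_, rfl⟩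
  rw [← hn]
  have hfix : ∀ d : P, cj V (Subgroup.inclusion hP d) n = n := by
    intro d
    rw [hn, map_prod]
    exact Fintype.prod_equiv (Equiv.mulLeft d) _ _ (fun c => by
      rw [← cj_mul, ← map_mul]
      rfl)
  have hmem : (n : G) ∈ V ⊓ Subgroup.centralizer (P : Set G) := by
    refine Subgroup.mem_inf.mpr ⟨n.2, ?_⟩
    rw [Subgroup.mem_centralizer_iff]
    intro d hd
    have h1 := congrArg Subtype.val (hfix ⟨d, hd⟩)
    rw [cj_coe] at h1
    have h2 : d * (n : G) * d⁻¹ = n := h1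
    calc d * (n : G) = d * n * d⁻¹ * d := by group
      _ = n * d := by rw [h2]
  rw [hC, Subgroup.mem_bot] at hmem
  exact Subtype.ext hmem

end

theorem main : Frob.{u} := by
  intro G _ _ V X₂ Q hVc hVne hX hQ hQX hcop hCX hfpf hCQ
  classical
  haveI := Fintype.ofFinite ↥X₂
  haveI := Fintype.ofFinite ↥Q
  apply hVne
  rw [Subgroup.eq_bot_iff_forall]
  intro v0 hv0
  obtain ⟨v, rfl⟩ : ∃ v : V, (v : G) = v0 := ⟨⟨v0, hv0⟩, rfl⟩
  have hT1 : ∏ a : X₂, ∏ c : Q,
      cj V (Subgroup.inclusion hX a * Subgroup.inclusion hQ c * (Subgroup.inclusion hX a)⁻¹) v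
        = 1 := by
    apply Finset.prod_eq_one
    intro a _
    have h1 : ∀ c : Q,
        cj V (Subgroup.inclusion hX a * Subgroup.inclusion hQ c * (Subgroup.inclusion hX a)⁻¹) v
          = cj V (Subgroup.inclusion hX a) (cj V (Subgroup.inclusion hQ c)
              (cj V (Subgroup.inclusion hX a)⁻¹ v)) := by
      intro c
      rw [cj_mul, cj_mul]
    rw [Finset.prod_congr rfl (fun c _ => h1 c), ← map_prod, norm_eq_one V Q hQ hCQ, map_one]
  rw [Finset.prod_comm] at hT1
  have hin : ∀ c : Q, c ≠ 1 → ∏ a : X₂,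
      cj V (Subgroup.inclusion hX a * Subgroup.inclusion hQ c * (Subgroup.inclusion hX a)⁻¹) v
        = 1 := by
    intro c hc
    have hmemψ : ∀ a : X₂, (a : G) * c * (a : G)⁻¹ * (c : G)⁻¹ ∈ X₂ := by
      intro a
      have h1 : (c : G) * (a : G)⁻¹ * (c : G)⁻¹ ∈ X₂ :=
        (Subgroup.mem_normalizer_iff.mp (hQX c.2) _).mp (X₂.inv_mem a.2)
      have h2 : (a : G) * c * (a : G)⁻¹ * (c : G)⁻¹ = a * (c * (a : G)⁻¹ * (c : G)⁻¹) := by
        group
      rw [h2]
      exact X₂.mul_mem a.2 h1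
    obtain ⟨ψ, hψ⟩ : ∃ ψ : X₂ → X₂, ∀ a, ((ψ a : X₂) : G) = (a : G) * c * (a : G)⁻¹ * (c : G)⁻¹ :=
      ⟨fun a => ⟨_, hmemψ a⟩, fun a => rfl⟩
    have hψinj : Function.Injective ψ := by
      intro a b hab
      have h1 : (a : G) * c * (a : G)⁻¹ * (c : G)⁻¹ = (b : G) * c * (b : G)⁻¹ * (c : G)⁻¹ := by
        rw [← hψ, ← hψ, hab]
      have h3 : (a : G) * c * (a : G)⁻¹ = (b : G) * c * (b : G)⁻¹ := mul_right_cancel h1
      have h2 : (c : G) * ((b : G)⁻¹ * a) = ((b : G)⁻¹ * a) * c := by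
        calc (c : G) * ((b : G)⁻¹ * a) = (b : G)⁻¹ * ((b : G) * c * (b : G)⁻¹) * a := by group
          _ = (b : G)⁻¹ * ((a : G) * c * (a : G)⁻¹) * a := by rw [h3]
          _ = ((b : G)⁻¹ * a) * c := by group
      have h4 := hfpf c c.2 (by intro h; exact hc (Subtype.ext h)) _
        (X₂.mul_mem (X₂.inv_mem b.2) a.2) h2
      rw [inv_mul_eq_one] at h4
      exact Subtype.ext h4.symm
    have hψbij : Function.Bijective ψ := Finite.injective_iff_bijective.mp hψinj
    have hkey : ∀ a : X₂,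
        cj V (Subgroup.inclusion hX a * Subgroup.inclusion hQ c * (Subgroup.inclusion hX a)⁻¹) v
          = cj V (Subgroup.inclusion hX (ψ a)) (cj V (Subgroup.inclusion hQ c) v) := by
      intro a
      have hel : Subgroup.inclusion hX a * Subgroup.inclusion hQ c * (Subgroup.inclusion hX a)⁻¹
          = Subgroup.inclusion hX (ψ a) * Subgroup.inclusion hQ c := by
        apply Subtype.ext
        show (a : G) * c * (a : G)⁻¹ = ((ψ a : X₂) : G) * c
        rw [hψ]
        group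
      rw [hel, cj_mul]
    rw [Finset.prod_congr rfl (fun a _ => hkey a)]
    rw [hψbij.prod_comp (fun a' => cj V (Subgroup.inclusion hX a') (cj V (Subgroup.inclusion hQ c) v))]
    exact norm_eq_one V X₂ hX hCX _
  have hT2 : ∏ c : Q, ∏ a : X₂,
      cj V (Subgroup.inclusion hX a * Subgroup.inclusion hQ c * (Subgroup.inclusion hX a)⁻¹) v
        = v ^ Fintype.card X₂ := by
    rw [Fintype.prod_eq_single (1 : Q) (fun c hc => hin c hc)]
    have h1 : ∀ a : X₂,
        cj V (Subgroup.inclusion hX a * Subgroup.inclusion hQ 1 * (Subgroup.inclusion hX a)⁻¹) v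
          = v := by
      intro a
      rw [map_one, mul_one, mul_inv_cancel, cj_one]
    rw [Finset.prod_congr rfl (fun a _ => h1 a), Finset.prod_const, Finset.card_univ]
  rw [hT2] at hT1
  have h1 : v ^ Nat.card V = 1 := pow_card_eq_one'
  have h2 : v ^ Nat.gcd (Nat.card V) (Fintype.card X₂) = 1 := pow_gcd_eq_one.mpr ⟨h1, hT1⟩
  rw [← Nat.card_eq_fintype_card, Nat.Coprime.gcd_eq_one hcop, pow_one] at h2
  rw [h2]
  rfl

end Cfsg.Agent.Lib.Helper67.BG143FROB
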