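import Mathlib
import Cfsg.Agent.Lib.Helper73.BG143Stmt

/-!
# S1432 / ZNIL: the centre of a nontrivial nilpotent subgroup `R` is a nontrivial abelian subgroup
normalized by `N_G(R)`.
-/

set_option autoImplicit false
universe u

namespace Cfsg.Agent.Lib.Helper67.BG143ZNIL

open Cfsg.Agent.Lib.Helper73.BG143Stmt

theorem main : ZNil.{u} := by
  intro G _ _ R hnil hne
  obtain ⟨V, hVdef⟩ : ∃ V : Subgroup G, V = (Subgroup.center ↥R).map R.subtype := ⟨_, rfl⟩
  have hV : ∀ v, v ∈ V ↔ v ∈ R ∧ ∀ r ∈ R, r * v = v * r := by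
    intro v
    rw [hVdef, Subgroup.mem_map]
    constructor
    · rintro ⟨z, hz, rfl⟩
      refine ⟨z.2, fun r hr => ?_⟩
      have h1 := Subgroup.mem_center_iff.mp hz ⟨r, hr⟩
      exact congrArg Subtype.val h1
    · rintro ⟨hvR, hcomm⟩
      refine ⟨⟨v, hvR⟩, ?_, rfl⟩
      rw [Subgroup.mem_center_iff]
      intro r
      exact Subtype.ext (hcomm r r.2)
  have hconj : ∀ g ∈ Subgroup.normalizer (R : Set G), ∀ v ∈ V, g * v * g⁻¹ ∈ V := by
    intro g hg v hv
    rw [hV] at hv ⊢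
    have hgR := Subgroup.mem_normalizer_iff.mp hg
    refine ⟨(hgR v).mp hv.1, fun r hr => ?_⟩
    have hr' : g⁻¹ * r * g ∈ R := by
      rw [hgR (g⁻¹ * r * g)]
      have h1 : g * (g⁻¹ * r * g) * g⁻¹ = r := by group
      rw [h1]
      exact hr
    have h2 := hv.2 _ hr'
    calc r * (g * v * g⁻¹) = g * ((g⁻¹ * r * g) * v) * g⁻¹ := by group
      _ = g * (v * (g⁻¹ * r * g)) * g⁻¹ := by rw [h2]
      _ = g * v * g⁻¹ * r := by group
  refine ⟨V, ?_, ?_, ?_, ?_⟩
  · intro v hv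
    exact ((hV v).mp hv).1
  · have : Nontrivial ↥R := (Subgroup.nontrivial_iff_ne_bot R).mpr hne
    have hc : Subgroup.center ↥R ≠ ⊥ := Group.IsNilpotent.center_ne_bot ↥R
    intro hbot
    apply hc
    rw [hVdef] at hbot
    exact (Subgroup.map_eq_bot_iff_of_injective _ R.subtype_injective).mp hbot
  · refine ⟨⟨fun a b => ?_⟩⟩
    exact Subtype.ext (((hV b).mp b.2).2 a ((hV a).mp a.2).1)
  · intro g hg
    rw [Subgroup.mem_normalizer_iff]
    intro v
    constructor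
    · exact hconj g hg v
    · intro h1
      have h2 := hconj g⁻¹ (Subgroup.inv_mem _ hg) _ h1
      have h3 : g⁻¹ * (g * v * g⁻¹) * g⁻¹⁻¹ = v := by group
      rwa [h3] at h2

end Cfsg.Agent.Lib.Helper67.BG143ZNIL
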