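import Mathlib
import Cfsg.Agent.Lib.Helper54.UniqueSubgroup

/-!
# S1421, piece PC: splitting an abelian `p`-group of rank two under a coprime automorphism

`P` abelian `p`-group with `Ω₁(P) = A` of order `p ^ 2`, `n` a `p'`-element normalizing `P`
which fixes a non-trivial element of `A` and moves some element of `A`.  Then
`P = C_P(n) × [P, n]` with both factors cyclic, and the larger one is the required `Y`.
-/

set_option autoImplicit false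

namespace Cfsg.Agent.Lib.Helper67.BGSplitCyclic

variable {Γ : Type*} [Group Γ]

/-- If `y = x⁻¹ (n x n⁻¹)` commutes with `n`, then `n ^ i x n ^ (-i) = x y ^ i`. -/
theorem conj_pow_eq (n x y : Γ) (hy : x⁻¹ * (n * x * n⁻¹) = y) (hc : n * y = y * n) (i : ℕ) :
    n ^ i * x * (n ^ i)⁻¹ = x * y ^ i := by
  induction i with
  | zero => simp
  | succ i ih =>
    have h1 : n * x * n⁻¹ = x * y := by rw [← hy]; group
    have h2 : n * y ^ i * n⁻¹ = y ^ i := by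
      have h3 : n * y ^ i = y ^ i * n := (Commute.pow_right (show Commute n y from hc) i).eq
      rw [h3]; group
    calc n ^ (i + 1) * x * (n ^ (i + 1))⁻¹ = n * (n ^ i * x * (n ^ i)⁻¹) * n⁻¹ := by
          rw [pow_succ']; group
      _ = n * (x * y ^ i) * n⁻¹ := by rw [ih]
      _ = (n * x * n⁻¹) * (n * y ^ i * n⁻¹) := by group
      _ = x * y ^ (i + 1) := by rw [h1, h2, pow_succ', mul_assoc]

/-- A commutator `x⁻¹ (n x n⁻¹)` of `p`-power order fixed by the `p'`-element `n` is trivial. -/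
theorem eq_one_of_fixed_comm {p : ℕ} (n x y : Γ) (hy : x⁻¹ * (n * x * n⁻¹) = y)
    (hc : n * y = y * n) (hno : (orderOf n).Coprime p) (hyp : ∃ k : ℕ, y ^ p ^ k = 1) :
    y = 1 := by
  have h := conj_pow_eq n x y hy hc (orderOf n)
  rw [pow_orderOf_eq_one] at h
  have h1 : y ^ orderOf n = 1 := by
    have h0 : x * y ^ orderOf n = x * 1 := by rw [← h]; group
    exact mul_left_cancel h0
  obtain ⟨k, hk⟩ := hyp
  have h2 : orderOf y ∣ Nat.gcd (orderOf n) (p ^ k) :=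
    Nat.dvd_gcd (orderOf_dvd_of_pow_eq_one h1) (orderOf_dvd_of_pow_eq_one hk)
  rw [(Nat.Coprime.pow_right k hno).gcd_eq_one] at h2
  exact orderOf_eq_one_iff.mp (Nat.dvd_one.mp h2)

theorem card_inf_eq_prime [Finite Γ] {p : ℕ} (hp : p.Prime) (A Y1 Y2 : Subgroup Γ)
    (hA : Nat.card A = p ^ 2) (hd : ∀ x ∈ Y1, x ∈ Y2 → x = 1)
    (h1 : ∃ a ∈ A, a ∈ Y1 ∧ a ≠ 1) (h2 : ∃ a ∈ A, a ∈ Y2 ∧ a ≠ 1) :
    Nat.card ↥(A ⊓ Y1) = p := by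
  have hdvd : Nat.card ↥(A ⊓ Y1) ∣ p ^ 2 := by
    rw [← hA]; exact Subgroup.card_dvd_of_le inf_le_left
  obtain ⟨m, hm, hcard⟩ := (Nat.dvd_prime_pow hp).mp hdvd
  interval_cases m
  · exfalso
    rw [pow_zero, Subgroup.card_eq_one] at hcard
    obtain ⟨a, haA, haY, ha1⟩ := h1
    have hmem : a ∈ A ⊓ Y1 := ⟨haA, haY⟩
    rw [hcard, Subgroup.mem_bot] at hmem
    exact ha1 hmem
  · rw [hcard, pow_one]
  · exfalso
    have heq : A ⊓ Y1 = A := Subgroup.eq_of_le_of_card_ge inf_le_left (by rw [hcard, hA])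
    obtain ⟨a, haA, haY, ha1⟩ := h2
    have hmem : a ∈ A ⊓ Y1 := by rw [heq]; exact haA
    exact ha1 (hd a hmem.2 haY)

theorem isCyclic_of_card_inf [Finite Γ] {p : ℕ} [Fact p.Prime] (P A Y : Subgroup Γ)
    (hP : IsPGroup p P) (hPc : ∀ a ∈ P, ∀ b ∈ P, a * b = b * a) (hYP : Y ≤ P)
    (hA : ∀ x ∈ P, x ^ p = 1 ↔ x ∈ A) (hcard : Nat.card ↥(A ⊓ Y) = p) : IsCyclic ↥Y := by
  apply Cfsg.Agent.Lib.Helper54.UniqueSubgroup.isCyclic_of_comm (hP.to_le hYP)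
  · intro g h hg hh hg1
    have hg' : (g : Γ) ^ p = 1 := by
      have h0 := congrArg Subtype.val hg
      simpa using h0
    have hh' : (h : Γ) ^ p = 1 := by
      have h0 := congrArg Subtype.val hh
      simpa using h0
    have hg1' : (g : Γ) ≠ 1 := fun h0 => hg1 (Subtype.ext h0)
    have hgA : (g : Γ) ∈ A ⊓ Y := ⟨(hA g (hYP g.2)).mp hg', g.2⟩
    have hhA : (h : Γ) ∈ A ⊓ Y := ⟨(hA h (hYP h.2)).mp hh', h.2⟩
    have hle : Subgroup.zpowers (g : Γ) ≤ A ⊓ Y := by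
      rw [Subgroup.zpowers_le]; exact hgA
    have hcz : Nat.card (Subgroup.zpowers (g : Γ)) = p := by
      rw [Nat.card_zpowers]; exact orderOf_eq_prime hg' hg1'
    have heq : Subgroup.zpowers (g : Γ) = A ⊓ Y :=
      Subgroup.eq_of_le_of_card_ge hle (by rw [hcz, hcard])
    have hmem : (h : Γ) ∈ Subgroup.zpowers (g : Γ) := by rw [heq]; exact hhA
    obtain ⟨i, hi⟩ := Subgroup.mem_zpowers_iff.mp hmem
    exact Subgroup.mem_zpowers_iff.mpr ⟨i, Subtype.ext (by simpa using hi)⟩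
  · intro x y
    exact Subtype.ext (hPc x (hYP x.2) y (hYP y.2))

theorem pow_card_eq_one_of_dec [Finite Γ] (P Y Y' : Subgroup Γ)
    (hPc : ∀ a ∈ P, ∀ b ∈ P, a * b = b * a) (hY : Y ≤ P) (hY' : Y' ≤ P)
    (hdec : ∀ x ∈ P, ∃ k ∈ Y', ∃ r ∈ Y, x = k * r) (hdvd : Nat.card Y' ∣ Nat.card Y) :
    ∀ x ∈ P, x ^ Nat.card Y = 1 := by
  intro x hx
  obtain ⟨k, hk, r, hr, rfl⟩ := hdec x hx
  have h1 : k ^ Nat.card Y = 1 := by
    obtain ⟨d, hd⟩ := hdvd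
    have h0 : k ^ Nat.card Y' = 1 := by
      have h3 := pow_card_eq_one' (G := ↥Y') (x := ⟨k, hk⟩)
      have h4 : ((⟨k, hk⟩ : ↥Y') : Γ) ^ Nat.card ↥Y' = 1 := by
        rw [← Subgroup.coe_pow, h3, Subgroup.coe_one]
      exact h4
    rw [hd, pow_mul, h0, one_pow]
  have h2 : r ^ Nat.card Y = 1 := by
    have h3 := pow_card_eq_one' (G := ↥Y) (x := ⟨r, hr⟩)
    have h4 : ((⟨r, hr⟩ : ↥Y) : Γ) ^ Nat.card ↥Y = 1 := by
      rw [← Subgroup.coe_pow, h3, Subgroup.coe_one]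
    exact h4
  have hc : Commute k r := hPc k (hY' hk) r (hY hr)
  rw [hc.mul_pow, h1, h2, one_mul]

set_option linter.unusedVariables false in
/-- Piece PC of S1421. -/
theorem split_cyclic {Γ : Type*} [Group Γ] [Finite Γ] {p : ℕ} [Fact p.Prime] (hp2 : p ≠ 2)
    (P A : Subgroup Γ) (hP : IsPGroup p P) (hPc : ∀ a ∈ P, ∀ b ∈ P, a * b = b * a)
    (hAP : A ≤ P) (hA : ∀ x ∈ P, x ^ p = 1 ↔ x ∈ A) (hAc : Nat.card A = p ^ 2)
    (n : Γ) (hn : n ∈ Subgroup.normalizer (P : Set Γ)) (hno : (orderOf n).Coprime p)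
    (hfix : ∃ a ∈ A, a ≠ 1 ∧ n * a = a * n) (hmov : ∃ a ∈ A, n * a ≠ a * n) :
    ∃ Y : Subgroup Γ, Y ≤ P ∧ IsCyclic Y ∧ (∀ x ∈ P, x ^ Nat.card Y = 1) ∧
      ∀ g ∈ Subgroup.normalizer (P : Set Γ),
        (∀ x ∈ P, (g * n * g⁻¹) * x * (g * n * g⁻¹)⁻¹ = n * x * n⁻¹) →
        g ∈ Subgroup.normalizer (Y : Set Γ) := by
  have hp : p.Prime := Fact.out
  have hnP : ∀ x ∈ P, n * x * n⁻¹ ∈ P := fun x hx =>
    (Subgroup.mem_normalizer_iff.mp hn x).mp hx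
  have hkey : ∀ w ∈ P, ∀ y : Γ, w⁻¹ * (n * w * n⁻¹) = y → n * y = y * n → y = 1 := by
    intro w hw y hwy hyc
    have hyP : y ∈ P := by rw [← hwy]; exact P.mul_mem (P.inv_mem hw) (hnP w hw)
    obtain ⟨k, hk⟩ := hP ⟨y, hyP⟩
    refine eq_one_of_fixed_comm n w y hwy hyc hno ⟨k, ?_⟩
    have h0 := congrArg Subtype.val hk
    simpa using h0
  -- the commutator map
  obtain ⟨κ, hκ⟩ : ∃ κ : ↥P →* ↥P, ∀ x : ↥P, ((κ x : ↥P) : Γ) = (x : Γ)⁻¹ * (n * x * n⁻¹) := by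
    refine ⟨MonoidHom.mk' (fun x => ⟨(x : Γ)⁻¹ * (n * x * n⁻¹),
      P.mul_mem (P.inv_mem x.2) (hnP x x.2)⟩) ?_, fun x => rfl⟩
    intro x y
    apply Subtype.ext
    show ((x * y : ↥P) : Γ)⁻¹ * (n * ((x * y : ↥P) : Γ) * n⁻¹) =
      (x : Γ)⁻¹ * (n * x * n⁻¹) * ((y : Γ)⁻¹ * (n * y * n⁻¹))
    rw [Subgroup.coe_mul]
    have hc := hPc (y : Γ)⁻¹ (P.inv_mem y.2) ((x : Γ)⁻¹ * (n * x * n⁻¹))
      (P.mul_mem (P.inv_mem x.2) (hnP x x.2))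
    calc ((x : Γ) * y)⁻¹ * (n * ((x : Γ) * y) * n⁻¹)
        = (y : Γ)⁻¹ * ((x : Γ)⁻¹ * (n * x * n⁻¹)) * (n * y * n⁻¹) := by group
      _ = (x : Γ)⁻¹ * (n * x * n⁻¹) * (y : Γ)⁻¹ * (n * y * n⁻¹) := by rw [hc]
      _ = _ := by group
  have hKmem : ∀ x : ↥P, x ∈ κ.ker ↔ n * (x : Γ) = x * n := by
    intro x
    rw [MonoidHom.mem_ker]
    constructor
    · intro h
      have h' := congrArg Subtype.val h
      rw [hκ, Subgroup.coe_one] at h'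
      exact (eq_mul_inv_iff_mul_eq.mp (inv_mul_eq_one.mp h')).symm
    · intro h
      apply Subtype.ext
      rw [hκ, Subgroup.coe_one, inv_mul_eq_one]
      exact eq_mul_inv_iff_mul_eq.mpr h.symm
  have hdisj : Disjoint κ.ker κ.range := by
    rw [Subgroup.disjoint_def]
    intro y hyK hyR
    obtain ⟨x, hx⟩ := MonoidHom.mem_range.mp hyR
    have h1 : ((x : Γ))⁻¹ * (n * x * n⁻¹) = (y : Γ) := by rw [← hκ, hx]
    exact Subtype.ext (hkey x x.2 y h1 ((hKmem y).mp hyK))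
  have hcard : Nat.card κ.ker * Nat.card κ.range = Nat.card ↥P := by
    rw [← Subgroup.index_ker]; exact Subgroup.card_mul_index _
  have hcompl := Subgroup.isComplement'_of_card_mul_and_disjoint hcard hdisj
  have hdec : ∀ x : ↥P, ∃ k ∈ κ.ker, ∃ r ∈ κ.range, x = k * r := by
    intro x
    obtain ⟨⟨k, r⟩, hkr, -⟩ := (Subgroup.isComplement_iff_existsUnique.mp hcompl) x
    exact ⟨k.1, k.2, r.1, r.2, hkr.symm⟩
  have hY1 : ∀ x : Γ, x ∈ κ.ker.map P.subtype ↔ x ∈ P ∧ n * x = x * n := by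
    intro x
    rw [Subgroup.mem_map]
    constructor
    · rintro ⟨k, hk, rfl⟩
      exact ⟨k.2, (hKmem k).mp hk⟩
    · rintro ⟨hx, hc⟩
      exact ⟨⟨x, hx⟩, (hKmem ⟨x, hx⟩).mpr hc, rfl⟩
  have hY2 : ∀ y : Γ, y ∈ κ.range.map P.subtype ↔ ∃ x ∈ P, x⁻¹ * (n * x * n⁻¹) = y := by
    intro y
    rw [Subgroup.mem_map]
    constructor
    · rintro ⟨r, hr, rfl⟩
      obtain ⟨x, hx⟩ := MonoidHom.mem_range.mp hr
      exact ⟨x, x.2, by rw [← hκ, hx]; rfl⟩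
    · rintro ⟨x, hx, rfl⟩
      exact ⟨κ ⟨x, hx⟩, MonoidHom.mem_range.mpr ⟨_, rfl⟩, hκ ⟨x, hx⟩⟩
  obtain ⟨Y1, hY1def⟩ : ∃ Y1 : Subgroup Γ, Y1 = κ.ker.map P.subtype := ⟨_, rfl⟩
  obtain ⟨Y2, hY2def⟩ : ∃ Y2 : Subgroup Γ, Y2 = κ.range.map P.subtype := ⟨_, rfl⟩
  have hY1P : Y1 ≤ P := by
    intro x hx
    rw [hY1def, hY1] at hx
    exact hx.1
  have hY2P : Y2 ≤ P := by
    intro y hy
    rw [hY2def, hY2] at hy
    obtain ⟨x, hx, rfl⟩ := hy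
    exact P.mul_mem (P.inv_mem hx) (hnP x hx)
  have hdec' : ∀ x ∈ P, ∃ k ∈ Y1, ∃ r ∈ Y2, x = k * r := by
    intro x hx
    obtain ⟨k, hk, r, hr, hkr⟩ := hdec ⟨x, hx⟩
    refine ⟨k, ?_, r, ?_, ?_⟩
    · rw [hY1def]; exact Subgroup.mem_map_of_mem P.subtype hk
    · rw [hY2def]; exact Subgroup.mem_map_of_mem P.subtype hr
    · have h0 := congrArg Subtype.val hkr
      simpa using h0
  have hgood_inv : ∀ g ∈ Subgroup.normalizer (P : Set Γ),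
      (∀ x ∈ P, (g * n * g⁻¹) * x * (g * n * g⁻¹)⁻¹ = n * x * n⁻¹) →
      (∀ x ∈ P, (g⁻¹ * n * g⁻¹⁻¹) * x * (g⁻¹ * n * g⁻¹⁻¹)⁻¹ = n * x * n⁻¹) := by
    intro g hg hgn x hx
    have hgx : g * x * g⁻¹ ∈ P := (Subgroup.mem_normalizer_iff.mp hg x).mp hx
    have h := hgn (g * x * g⁻¹) hgx
    calc (g⁻¹ * n * g⁻¹⁻¹) * x * (g⁻¹ * n * g⁻¹⁻¹)⁻¹
        = g⁻¹ * (n * (g * x * g⁻¹) * n⁻¹) * g := by group
      _ = g⁻¹ * (g * n * g⁻¹ * (g * x * g⁻¹) * (g * n * g⁻¹)⁻¹) * g := by rw [h]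
      _ = n * x * n⁻¹ := by group
  have hinv1 : ∀ g ∈ Subgroup.normalizer (P : Set Γ),
      (∀ x ∈ P, (g * n * g⁻¹) * x * (g * n * g⁻¹)⁻¹ = n * x * n⁻¹) →
      ∀ x ∈ Y1, g * x * g⁻¹ ∈ Y1 := by
    intro g hg hgn x hx
    rw [hY1def, hY1] at hx ⊢
    obtain ⟨hxP, hxc⟩ := hx
    have hgx : g * x * g⁻¹ ∈ P := (Subgroup.mem_normalizer_iff.mp hg x).mp hxP
    refine ⟨hgx, ?_⟩
    have h := hgn (g * x * g⁻¹) hgx
    have h2 : g * n * g⁻¹ * (g * x * g⁻¹) * (g * n * g⁻¹)⁻¹ = g * x * g⁻¹ := by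
      have h3 : g * n * g⁻¹ * (g * x * g⁻¹) * (g * n * g⁻¹)⁻¹ = g * (n * x * n⁻¹) * g⁻¹ := by
        group
      have h4 : n * x * n⁻¹ = x := by rw [hxc]; group
      rw [h3, h4]
    rw [h2] at h
    exact (eq_mul_inv_iff_mul_eq.mp h).symm
  have hinv2 : ∀ g ∈ Subgroup.normalizer (P : Set Γ),
      (∀ x ∈ P, (g * n * g⁻¹) * x * (g * n * g⁻¹)⁻¹ = n * x * n⁻¹) →
      ∀ y ∈ Y2, g * y * g⁻¹ ∈ Y2 := by
    intro g hg hgn y hy
    rw [hY2def, hY2] at hy ⊢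
    obtain ⟨x, hxP, rfl⟩ := hy
    have hgx : g * x * g⁻¹ ∈ P := (Subgroup.mem_normalizer_iff.mp hg x).mp hxP
    refine ⟨g * x * g⁻¹, hgx, ?_⟩
    have h := hgn (g * x * g⁻¹) hgx
    calc (g * x * g⁻¹)⁻¹ * (n * (g * x * g⁻¹) * n⁻¹)
        = (g * x * g⁻¹)⁻¹ * (g * n * g⁻¹ * (g * x * g⁻¹) * (g * n * g⁻¹)⁻¹) := by rw [h]
      _ = g * (x⁻¹ * (n * x * n⁻¹)) * g⁻¹ := by group
  have hnorm : ∀ Y : Subgroup Γ, (∀ g ∈ Subgroup.normalizer (P : Set Γ),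
      (∀ x ∈ P, (g * n * g⁻¹) * x * (g * n * g⁻¹)⁻¹ = n * x * n⁻¹) →
        ∀ x ∈ Y, g * x * g⁻¹ ∈ Y) →
      ∀ g ∈ Subgroup.normalizer (P : Set Γ),
        (∀ x ∈ P, (g * n * g⁻¹) * x * (g * n * g⁻¹)⁻¹ = n * x * n⁻¹) →
        g ∈ Subgroup.normalizer (Y : Set Γ) := by
    intro Y hY g hg hgn
    rw [Subgroup.mem_normalizer_iff]
    intro h
    refine ⟨hY g hg hgn h, fun hh => ?_⟩
    have h0 := hY g⁻¹ (Subgroup.inv_mem _ hg) (hgood_inv g hg hgn) _ hh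
    have e : g⁻¹ * (g * h * g⁻¹) * g⁻¹⁻¹ = h := by group
    rwa [e] at h0
  have hnA : ∀ a ∈ A, n * a * n⁻¹ ∈ A := by
    intro a ha
    have haP := hAP ha
    rw [← hA _ (hnP a haP)]
    have h0 : (n * a * n⁻¹) ^ p = n * a ^ p * n⁻¹ := conj_pow
    rw [h0, (hA a haP).mpr ha]; group
  have h1 : ∃ a ∈ A, a ∈ Y1 ∧ a ≠ 1 := by
    obtain ⟨a, ha, ha1, hac⟩ := hfix
    exact ⟨a, ha, by rw [hY1def, hY1]; exact ⟨hAP ha, hac⟩, ha1⟩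
  have h2 : ∃ a ∈ A, a ∈ Y2 ∧ a ≠ 1 := by
    obtain ⟨a, ha, hac⟩ := hmov
    refine ⟨a⁻¹ * (n * a * n⁻¹), A.mul_mem (A.inv_mem ha) (hnA a ha),
      by rw [hY2def, hY2]; exact ⟨a, hAP ha, rfl⟩, ?_⟩
    intro h
    apply hac
    exact (eq_mul_inv_iff_mul_eq.mp (inv_mul_eq_one.mp h)).symm
  have hd12 : ∀ x ∈ Y1, x ∈ Y2 → x = 1 := by
    intro x hx1 hx2
    rw [hY1def, hY1] at hx1
    rw [hY2def, hY2] at hx2
    obtain ⟨w, hw, hwx⟩ := hx2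
    exact hkey w hw x hwx hx1.2
  have hc1 : Nat.card ↥(A ⊓ Y1) = p := card_inf_eq_prime hp A Y1 Y2 hAc hd12 h1 h2
  have hc2 : Nat.card ↥(A ⊓ Y2) = p :=
    card_inf_eq_prime hp A Y2 Y1 hAc (fun x hx2 hx1 => hd12 x hx1 hx2) h2 h1
  have hcyc1 : IsCyclic ↥Y1 := isCyclic_of_card_inf P A Y1 hP hPc hY1P hA hc1
  have hcyc2 : IsCyclic ↥Y2 := isCyclic_of_card_inf P A Y2 hP hPc hY2P hA hc2
  obtain ⟨a1, ha1⟩ := (hP.to_le hY1P).exists_card_eq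
  obtain ⟨a2, ha2⟩ := (hP.to_le hY2P).exists_card_eq
  rcases le_total a1 a2 with hle | hle
  · refine ⟨Y2, hY2P, hcyc2, ?_, hnorm Y2 hinv2⟩
    exact pow_card_eq_one_of_dec P Y2 Y1 hPc hY2P hY1P hdec'
      (by rw [ha1, ha2]; exact pow_dvd_pow p hle)
  · refine ⟨Y1, hY1P, hcyc1, ?_, hnorm Y1 hinv1⟩
    refine pow_card_eq_one_of_dec P Y1 Y2 hPc hY1P hY2P ?_
      (by rw [ha1, ha2]; exact pow_dvd_pow p hle)
    intro x hx
    obtain ⟨k, hk, r, hr, rfl⟩ := hdec' x hx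
    exact ⟨r, hr, k, hk, hPc k (hY1P hk) r (hY2P hr)⟩

end Cfsg.Agent.Lib.Helper67.BGSplitCyclic
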