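import Mathlib
import Cfsg.Agent.Lib.Helper67.BGSplitCyclic

/-!
# S1421, piece PQ: a subgroup of prime order `q` is normal

`E` a finite group with abelian derived group and cyclic `q`-subgroups, `z ∈ E` of order `q`
such that every abelian `z`-invariant subgroup of `E` on which `z` acts fixed-point-freely is
trivial.  Then `⟨z⟩` is normal in `E`.
-/

set_option autoImplicit false

namespace Cfsg.Agent.Lib.Helper67.BGQ1Normal

open Cfsg.Agent.Lib.Helper67.BGSplitCyclic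
open scoped commutatorElement

variable {Γ : Type*} [Group Γ]

theorem comm_of_isCyclic {Q : Type*} [Group Q] [IsCyclic Q] (a b : Q) : a * b = b * a := by
  obtain ⟨g, hg⟩ := IsCyclic.exists_generator (α := Q)
  obtain ⟨i, rfl⟩ := Subgroup.mem_zpowers_iff.mp (hg a)
  obtain ⟨j, rfl⟩ := Subgroup.mem_zpowers_iff.mp (hg b)
  exact (Commute.zpow_zpow_self g i j).eq

/-- In a finite cyclic group, an element `j` with `j ^ orderOf z = 1` is a power of `z`. -/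
theorem mem_zpowers_of_isCyclic {Q : Type*} [Group Q] [Finite Q] [IsCyclic Q] (z j : Q)
    (hj : j ^ orderOf z = 1) : j ∈ Subgroup.zpowers z := by
  classical
  have := Fintype.ofFinite Q
  by_contra hcon
  have hle := IsCyclic.card_pow_eq_one_le (α := Q) (orderOf_pos z)
  have hinj : Set.InjOn (fun i => z ^ i) (↑(Finset.range (orderOf z)) : Set ℕ) := by
    intro a ha b hb hab
    rw [Finset.coe_range] at ha hb
    exact pow_injOn_Iio_orderOf ha hb hab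
  have hnot : j ∉ (Finset.range (orderOf z)).image (fun i => z ^ i) := by
    intro hmem
    rw [Finset.mem_image] at hmem
    obtain ⟨i, -, rfl⟩ := hmem
    exact hcon (Subgroup.npow_mem_zpowers z i)
  have hT : insert j ((Finset.range (orderOf z)).image (fun i => z ^ i)) ⊆
      Finset.univ.filter (fun a : Q => a ^ orderOf z = 1) := by
    intro a ha
    rw [Finset.mem_filter]
    refine ⟨Finset.mem_univ _, ?_⟩
    rw [Finset.mem_insert, Finset.mem_image] at ha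
    rcases ha with rfl | ⟨i, -, rfl⟩
    · exact hj
    · rw [← pow_mul, mul_comm, pow_mul, pow_orderOf_eq_one, one_pow]
  have hcard : (insert j ((Finset.range (orderOf z)).image (fun i => z ^ i))).card =
      orderOf z + 1 := by
    rw [Finset.card_insert_of_notMem hnot, Finset.card_image_of_injOn hinj, Finset.card_range]
  have h1 : (insert j ((Finset.range (orderOf z)).image (fun i => z ^ i))).card ≤ orderOf z :=
    (Finset.card_le_card hT).trans hle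
  omega

/-- The commutator map `x ↦ x⁻¹ (z x z⁻¹)` of an abelian `z`-invariant subgroup. -/
theorem exists_commHom (D : Subgroup Γ) (hD : ∀ a ∈ D, ∀ b ∈ D, a * b = b * a) (z : Γ)
    (hz : ∀ d ∈ D, z * d * z⁻¹ ∈ D) :
    ∃ κ : ↥D →* ↥D, ∀ x : ↥D, ((κ x : ↥D) : Γ) = (x : Γ)⁻¹ * (z * x * z⁻¹) := by
  refine ⟨MonoidHom.mk' (fun x => ⟨(x : Γ)⁻¹ * (z * x * z⁻¹),
    D.mul_mem (D.inv_mem x.2) (hz x x.2)⟩) ?_, fun x => rfl⟩
  intro x y
  apply Subtype.ext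
  show ((x * y : ↥D) : Γ)⁻¹ * (z * ((x * y : ↥D) : Γ) * z⁻¹) =
    (x : Γ)⁻¹ * (z * x * z⁻¹) * ((y : Γ)⁻¹ * (z * y * z⁻¹))
  rw [Subgroup.coe_mul]
  have hc := hD (y : Γ)⁻¹ (D.inv_mem y.2) ((x : Γ)⁻¹ * (z * x * z⁻¹))
    (D.mul_mem (D.inv_mem x.2) (hz x x.2))
  calc ((x : Γ) * y)⁻¹ * (z * ((x : Γ) * y) * z⁻¹)
      = (y : Γ)⁻¹ * ((x : Γ)⁻¹ * (z * x * z⁻¹)) * (z * y * z⁻¹) := by group
    _ = (x : Γ)⁻¹ * (z * x * z⁻¹) * (y : Γ)⁻¹ * (z * y * z⁻¹) := by rw [hc]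
    _ = _ := by group

/-- Piece PQ of S1421. -/
theorem q1_normal {Γ : Type*} [Group Γ] [Finite Γ] (E : Subgroup Γ) (z : Γ) {q : ℕ}
    [Fact q.Prime] (hzE : z ∈ E) (hz : orderOf z = q)
    (hD : ∀ a ∈ ⁅E, E⁆, ∀ b ∈ ⁅E, E⁆, a * b = b * a)
    (hcyc : ∀ Q : Subgroup Γ, Q ≤ E → IsPGroup q Q → IsCyclic Q)
    (hstar : ∀ B : Subgroup Γ, B ≤ E → (∀ a ∈ B, ∀ b ∈ B, a * b = b * a) →
      z ∈ Subgroup.normalizer (B : Set Γ) → (∀ b ∈ B, z * b = b * z → b = 1) → B = ⊥) :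
    ∀ g ∈ E, g * z * g⁻¹ ∈ Subgroup.zpowers z := by
  have hq : q.Prime := Fact.out
  have hDE : ⁅E, E⁆ ≤ E := Subgroup.commutator_le.mpr (fun a ha b hb =>
    E.mul_mem (E.mul_mem (E.mul_mem ha hb) (E.inv_mem ha)) (E.inv_mem hb))
  have hDn : ∀ g ∈ E, ∀ d ∈ ⁅E, E⁆, g * d * g⁻¹ ∈ ⁅E, E⁆ := by
    intro g hg d hd
    have h1 : ⁅g, d⁆ ∈ ⁅E, E⁆ := Subgroup.commutator_mem_commutator hg (hDE hd)
    have h2 : g * d * g⁻¹ = ⁅g, d⁆ * d := by rw [commutatorElement_def]; group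
    rw [h2]; exact Subgroup.mul_mem _ h1 hd
  have hzq : z ^ q = 1 := by rw [← hz]; exact pow_orderOf_eq_one z
  have hzinvE : z⁻¹ ∈ E := E.inv_mem hzE
  -- the `q`-elements of the derived group
  obtain ⟨Dq, hDq⟩ : ∃ Dq : Subgroup Γ, ∀ y, y ∈ Dq ↔ y ∈ ⁅E, E⁆ ∧ ∃ k : ℕ, y ^ q ^ k = 1 := by
    refine ⟨{ carrier := {y | y ∈ ⁅E, E⁆ ∧ ∃ k : ℕ, y ^ q ^ k = 1}
              mul_mem' := ?_
              one_mem' := ⟨Subgroup.one_mem _, 0, one_pow _⟩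
              inv_mem' := ?_ }, fun y => Iff.rfl⟩
    · rintro x y ⟨hx, k1, hx'⟩ ⟨hy, k2, hy'⟩
      refine ⟨Subgroup.mul_mem _ hx hy, k1 + k2, ?_⟩
      rw [(show Commute x y from hD x hx y hy).mul_pow, pow_add, pow_mul, hx', one_pow,
        mul_comm (q ^ k1), pow_mul, hy', one_pow, one_mul]
    · rintro x ⟨hx, k, hx'⟩
      exact ⟨Subgroup.inv_mem _ hx, k, by rw [inv_pow, hx', inv_one]⟩
  have hDqD : Dq ≤ ⁅E, E⁆ := fun y hy => ((hDq y).mp hy).1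
  have hDqn : ∀ g ∈ E, ∀ y ∈ Dq, g * y * g⁻¹ ∈ Dq := by
    intro g hg y hy
    obtain ⟨hyD, k, hk⟩ := (hDq y).mp hy
    refine (hDq _).mpr ⟨hDn g hg y hyD, k, ?_⟩
    have h0 : (g * y * g⁻¹) ^ q ^ k = g * y ^ q ^ k * g⁻¹ := conj_pow
    rw [h0, hk]; group
  have hzN : z ∈ Subgroup.normalizer (Dq : Set Γ) := by
    rw [Subgroup.mem_normalizer_iff]
    intro h
    refine ⟨hDqn z hzE h, fun hh => ?_⟩
    have h0 := hDqn z⁻¹ hzinvE _ hh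
    have e : z⁻¹ * (z * h * z⁻¹) * z⁻¹⁻¹ = h := by group
    rwa [e] at h0
  have hQp : IsPGroup q (Subgroup.zpowers z ⊔ Dq : Subgroup Γ) := by
    apply IsPGroup.to_sup_of_normal_right'
    · apply IsPGroup.of_card (n := 1)
      rw [Nat.card_zpowers, hz, pow_one]
    · intro y
      obtain ⟨_, k, hk⟩ := (hDq y).mp y.2
      exact ⟨k, Subtype.ext (by rw [Subgroup.coe_pow, hk, Subgroup.coe_one])⟩
    · rw [Subgroup.zpowers_le]; exact hzN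
  have hQE : Subgroup.zpowers z ⊔ Dq ≤ E :=
    sup_le (by rw [Subgroup.zpowers_le]; exact hzE) (hDqD.trans hDE)
  have hQcyc : IsCyclic ↥(Subgroup.zpowers z ⊔ Dq : Subgroup Γ) := hcyc _ hQE hQp
  have hzQ : z ∈ Subgroup.zpowers z ⊔ Dq := Subgroup.mem_sup_left (Subgroup.mem_zpowers z)
  have hcomm : ∀ y ∈ Dq, z * y = y * z := by
    intro y hy
    have h0 := comm_of_isCyclic (⟨z, hzQ⟩ : ↥(Subgroup.zpowers z ⊔ Dq : Subgroup Γ))
      ⟨y, Subgroup.mem_sup_right hy⟩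
    exact congrArg Subtype.val h0
  -- the commutator map on the derived group
  obtain ⟨κ, hκ⟩ := exists_commHom ⁅E, E⁆ hD z (hDn z hzE)
  obtain ⟨a, m, hnd, hcard⟩ :=
    Nat.exists_eq_pow_mul_and_not_dvd (Nat.card_pos (α := Γ)).ne' q hq.ne_one
  have hcop : Nat.Coprime q m := (Nat.Prime.coprime_iff_not_dvd hq).mpr hnd
  have hκm : ∀ d : ↥⁅E, E⁆, ((κ d : ↥⁅E, E⁆) : Γ) ^ m = 1 := by
    intro d
    have h1 : (d : Γ) ^ m ∈ Dq := by
      refine (hDq _).mpr ⟨Subgroup.pow_mem _ d.2 m, a, ?_⟩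
      rw [← pow_mul, mul_comm m (q ^ a), ← hcard]; exact pow_card_eq_one'
    have h2 : z * (d : Γ) ^ m = (d : Γ) ^ m * z := hcomm _ h1
    have h3 : κ (d ^ m) = 1 := by
      apply Subtype.ext
      rw [hκ, Subgroup.coe_one, Subgroup.coe_pow, inv_mul_eq_one]
      exact eq_mul_inv_iff_mul_eq.mpr h2.symm
    rw [← Subgroup.coe_pow, ← map_pow, h3, Subgroup.coe_one]
  have hBmem : ∀ y : Γ, y ∈ κ.range.map (⁅E, E⁆).subtype ↔
      ∃ d ∈ ⁅E, E⁆, d⁻¹ * (z * d * z⁻¹) = y := by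
    intro y
    rw [Subgroup.mem_map]
    constructor
    · rintro ⟨r, hr, rfl⟩
      obtain ⟨x, hx⟩ := MonoidHom.mem_range.mp hr
      exact ⟨x, x.2, by rw [← hκ, hx]; rfl⟩
    · rintro ⟨x, hx, rfl⟩
      exact ⟨κ ⟨x, hx⟩, MonoidHom.mem_range.mpr ⟨_, rfl⟩, hκ ⟨x, hx⟩⟩
  have hBD : κ.range.map (⁅E, E⁆).subtype ≤ ⁅E, E⁆ := Subgroup.map_subtype_le _
  have hBinv : ∀ w ∈ E, w * z = z * w → ∀ y ∈ κ.range.map (⁅E, E⁆).subtype,
      w * y * w⁻¹ ∈ κ.range.map (⁅E, E⁆).subtype := by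
    intro w hw hwz y hy
    rw [hBmem] at hy ⊢
    obtain ⟨d, hd, rfl⟩ := hy
    refine ⟨w * d * w⁻¹, hDn w hw d hd, ?_⟩
    have h1 : z * w = w * z := hwz.symm
    have h2 : z⁻¹ * w⁻¹ = w⁻¹ * z⁻¹ := by rw [← mul_inv_rev, ← mul_inv_rev, hwz]
    calc (w * d * w⁻¹)⁻¹ * (z * (w * d * w⁻¹) * z⁻¹)
        = w * d⁻¹ * w⁻¹ * ((z * w) * d * (w⁻¹ * z⁻¹)) := by group
      _ = w * d⁻¹ * w⁻¹ * ((w * z) * d * (z⁻¹ * w⁻¹)) := by rw [h1, h2]
      _ = w * (d⁻¹ * (z * d * z⁻¹)) * w⁻¹ := by group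
  have hzNB : z ∈ Subgroup.normalizer
      ((κ.range.map (⁅E, E⁆).subtype : Subgroup Γ) : Set Γ) := by
    rw [Subgroup.mem_normalizer_iff]
    intro h
    refine ⟨hBinv z hzE rfl h, fun hh => ?_⟩
    have h0 := hBinv z⁻¹ hzinvE (by group) _ hh
    have e : z⁻¹ * (z * h * z⁻¹) * z⁻¹⁻¹ = h := by group
    rwa [e] at h0
  have hCB : ∀ b ∈ κ.range.map (⁅E, E⁆).subtype, z * b = b * z → b = 1 := by
    intro b hb hzb
    obtain ⟨r, hr, rfl⟩ := Subgroup.mem_map.mp hb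
    obtain ⟨d, rfl⟩ := MonoidHom.mem_range.mp hr
    have hzb' : z * ((κ d : ↥⁅E, E⁆) : Γ) = ((κ d : ↥⁅E, E⁆) : Γ) * z := hzb
    show ((κ d : ↥⁅E, E⁆) : Γ) = 1
    have h1 : ((κ d : ↥⁅E, E⁆) : Γ) ^ m = 1 := hκm d
    have h2 : ((κ d : ↥⁅E, E⁆) : Γ) ^ q = 1 := by
      have h3 := conj_pow_eq z (d : Γ) ((κ d : ↥⁅E, E⁆) : Γ) (hκ d).symm hzb' (orderOf z)
      rw [pow_orderOf_eq_one] at h3
      have h4 : (d : Γ) * ((κ d : ↥⁅E, E⁆) : Γ) ^ orderOf z = (d : Γ) * 1 := by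
        rw [← h3]; group
      rw [← hz]; exact mul_left_cancel h4
    have h5 : orderOf ((κ d : ↥⁅E, E⁆) : Γ) ∣ Nat.gcd q m :=
      Nat.dvd_gcd (orderOf_dvd_of_pow_eq_one h2) (orderOf_dvd_of_pow_eq_one h1)
    rw [hcop.gcd_eq_one] at h5
    exact orderOf_eq_one_iff.mp (Nat.dvd_one.mp h5)
  have hB := hstar _ (hBD.trans hDE) (fun a ha b hb => hD a (hBD ha) b (hBD hb)) hzNB hCB
  have hzD : ∀ d ∈ ⁅E, E⁆, z * d = d * z := by
    intro d hd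
    have h1 : d⁻¹ * (z * d * z⁻¹) ∈ κ.range.map (⁅E, E⁆).subtype :=
      (hBmem _).mpr ⟨d, hd, rfl⟩
    rw [hB, Subgroup.mem_bot] at h1
    exact (eq_mul_inv_iff_mul_eq.mp (inv_mul_eq_one.mp h1)).symm
  intro g hg
  have hjD : ⁅g, z⁆ ∈ ⁅E, E⁆ := Subgroup.commutator_mem_commutator hg hzE
  have hjz : z * ⁅g, z⁆ = ⁅g, z⁆ * z := hzD _ hjD
  have hgz : g * z * g⁻¹ = ⁅g, z⁆ * z := by rw [commutatorElement_def]; group
  have hjq : ⁅g, z⁆ ^ q = 1 := by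
    have h1 : (⁅g, z⁆ * z) ^ q = 1 := by
      rw [← hgz]
      have h0 : (g * z * g⁻¹) ^ q = g * z ^ q * g⁻¹ := conj_pow
      rw [h0, hzq]; group
    rw [(show Commute ⁅g, z⁆ z from hjz.symm).mul_pow, hzq, mul_one] at h1
    exact h1
  have hjDq : ⁅g, z⁆ ∈ Dq := (hDq _).mpr ⟨hjD, 1, by rw [pow_one]; exact hjq⟩
  have hjQ : ⁅g, z⁆ ∈ Subgroup.zpowers z ⊔ Dq := Subgroup.mem_sup_right hjDq
  have hmem := mem_zpowers_of_isCyclic (⟨z, hzQ⟩ : ↥(Subgroup.zpowers z ⊔ Dq : Subgroup Γ))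
    ⟨⁅g, z⁆, hjQ⟩ (by
      rw [Subgroup.orderOf_mk, hz]
      exact Subtype.ext (by rw [Subgroup.coe_pow, Subgroup.coe_one]; exact hjq))
  obtain ⟨i, hi⟩ := Subgroup.mem_zpowers_iff.mp hmem
  have hi' : z ^ i = ⁅g, z⁆ := by
    have h0 := congrArg Subtype.val hi
    simpa using h0
  rw [hgz, ← hi']
  exact Subgroup.mul_mem _ (Subgroup.zpow_mem_zpowers z i) (Subgroup.mem_zpowers z)

end Cfsg.Agent.Lib.Helper67.BGQ1Normal
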