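import Mathlib
import Cfsg.Prelude.Def_Blocks
import Cfsg.Agent.Lib.CT.Clifford
import Cfsg.Agent.Lib.CT.Ops
import Cfsg.Agent.Lib.CT.LinChar

set_option autoImplicit false
set_option linter.style.haveILetI false

/-! Piece [L1] of S4503 (helper74's split): a character of degree `< (p - 1) / 2` which is
constant on the non-identity elements of a Sylow `p`-subgroup of order `p` is trivial on it. -/

namespace Cfsg.Agent.Lib.Helper67.BrL1

open Cfsg
open scoped ComplexConjugate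
open Cfsg.Agent.Lib.CT.Wedderburn Cfsg.Agent.Lib.CT.Clifford Cfsg.Agent.Lib.CT.Ops
  Cfsg.Agent.Lib.CT.LinChar

universe u
variable {G : Type u} [Group G]

/-- A weighted sum of a function constant off `1`. -/
theorem sum_const_off_one {Q : Type*} [Group Q] [Fintype Q] (F w : Q → ℂ) (c : ℂ)
    (hF : ∀ u : Q, u ≠ 1 → F u = c) (hw : w 1 = 1) :
    ∑ u : Q, F u * w u = F 1 + c * (∑ u : Q, w u - 1) := by
  classical
  rw [← Finset.add_sum_erase Finset.univ _ (Finset.mem_univ (1 : Q)), hw, mul_one]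
  congr 1
  have h1 : ∑ u ∈ Finset.univ.erase (1 : Q), F u * w u
      = ∑ u ∈ Finset.univ.erase (1 : Q), c * w u :=
    Finset.sum_congr rfl (fun u hu => by rw [hF u (Finset.ne_of_mem_erase hu)])
  rw [h1, ← Finset.mul_sum, Finset.sum_erase_eq_sub (Finset.mem_univ (1 : Q)), hw]

/-- [L1] -/
theorem trivial_of_const [Finite G] (p : ℕ) [Fact p.Prime] (P : Sylow p G) (hP : Nat.card P = p)
    (Φ : G → ℂ) (hΦ : IsCharacter G Φ) (hdeg : 2 * charDegree Φ + 1 < p) (c : ℂ)
    (hc : ∀ u : G, u ∈ (P : Subgroup G) → u ≠ 1 → Φ u = c) :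
    ∀ u : G, u ∈ (P : Subgroup G) → Φ u = Φ 1 := by
  classical
  have hp : p.Prime := Fact.out
  letI : Fintype ↥(P : Subgroup G) := Fintype.ofFinite _
  have hP' : Nat.card ↥(P : Subgroup G) = p := hP
  have hcyc : IsCyclic ↥(P : Subgroup G) := isCyclic_of_prime_card hP'
  have hnt : Nontrivial ↥(P : Subgroup G) := by
    rw [← Finite.one_lt_card_iff_nontrivial, hP']; exact hp.one_lt
  obtain ⟨u₀, hu₀⟩ := exists_ne (1 : ↥(P : Subgroup G))
  -- a non-trivial linear character of `P`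
  obtain ⟨ψ, hψ⟩ : ∃ ψ : ↥(P : Subgroup G) →* ℂˣ, ψ u₀ ≠ 1 := by
    letI : CommGroup ↥(P : Subgroup G) := IsCyclic.commGroup
    have : NeZero (Monoid.exponent ↥(P : Subgroup G)) := ⟨Monoid.exponent_ne_zero_of_finite⟩
    exact CommGroup.exists_apply_ne_one_of_hasEnoughRootsOfUnity _ ℂ hu₀
  have hres : IsCharacter ↥(P : Subgroup G) (fun u : ↥(P : Subgroup G) => Φ (u : G)) :=
    isCharacter_restrict (P : Subgroup G) hΦ
  obtain ⟨a₁, ha₁⟩ := classInner_char_nat hres (isCharacter_of_hom (1 : ↥(P : Subgroup G) →* ℂˣ))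
  obtain ⟨a, ha⟩ := classInner_char_nat hres (isCharacter_of_hom ψ)
  have hF : ∀ u : ↥(P : Subgroup G), u ≠ 1 → Φ (u : G) = c := by
    intro u hu
    exact hc (u : G) u.2 (fun h => hu (Subtype.ext h))
  have hpC : (p : ℂ) ≠ 0 := Nat.cast_ne_zero.2 hp.ne_zero
  -- trivial character
  have e1 : (p : ℂ) * a₁ = Φ 1 + c * ((p : ℂ) - 1) := by
    have h := sum_const_off_one (fun u : ↥(P : Subgroup G) => Φ (u : G))
      (fun u => conj ((((1 : ↥(P : Subgroup G) →* ℂˣ) u : ℂˣ) : ℂ))) c hF (by simp)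
    rw [← ha₁]
    unfold classInner
    rw [hP', ← mul_assoc, mul_inv_cancel₀ hpC, one_mul, h]
    have hcard : Fintype.card ↥(P : Subgroup G) = p := by
      rw [← Nat.card_eq_fintype_card]; exact hP'
    simp [hcard]
  -- the non-trivial character
  have hsum : ∑ u : ↥(P : Subgroup G), conj (((ψ u : ℂˣ) : ℂ)) = 0 := by
    rw [← map_sum]
    have h0 : ∑ u : ↥(P : Subgroup G), ((Units.coeHom ℂ).comp ψ) u = 0 := by
      apply sum_hom_units_eq_zero
      intro h
      apply hψ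
      have h' := DFunLike.congr_fun h u₀
      exact Units.ext (by simpa using h')
    have h0' : ∑ u : ↥(P : Subgroup G), ((ψ u : ℂˣ) : ℂ) = 0 := h0
    rw [h0', map_zero]
  have e2 : (p : ℂ) * a = Φ 1 - c := by
    have h := sum_const_off_one (fun u : ↥(P : Subgroup G) => Φ (u : G))
      (fun u => conj (((ψ u : ℂˣ) : ℂ))) c hF (by simp)
    rw [← ha]
    unfold classInner
    rw [hP', ← mul_assoc, mul_inv_cancel₀ hpC, one_mul, h, hsum]
    simp
    ring
  -- arithmetic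
  have hD : (charDegree Φ : ℂ) = Φ 1 := char_natCast_charDegree hΦ
  have e3 : ((charDegree Φ : ℕ) : ℂ) = ((a₁ + (p - 1) * a : ℕ) : ℂ) := by
    have hp1 : ((p - 1 : ℕ) : ℂ) = (p : ℂ) - 1 := by
      rw [Nat.cast_sub hp.one_lt.le, Nat.cast_one]
    rw [Nat.cast_add, Nat.cast_mul, hp1, hD]
    have h4 : (p : ℂ) * ((a₁ : ℂ) + ((p : ℂ) - 1) * a) = (p : ℂ) * Φ 1 := by
      linear_combination e1 + ((p : ℂ) - 1) * e2
    exact (mul_left_cancel₀ hpC h4).symm
  have e4 : charDegree Φ = a₁ + (p - 1) * a := by exact_mod_cast e3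
  have ha0 : a = 0 := by
    by_contra hne
    have h1 : 1 ≤ a := Nat.one_le_iff_ne_zero.2 hne
    have h2 : p - 1 ≤ (p - 1) * a := Nat.le_mul_of_pos_right _ h1
    omega
  have hcΦ : c = Φ 1 := by
    rw [ha0] at e2
    simp at e2
    exact (sub_eq_zero.1 e2.symm).symm
  intro u hu
  by_cases h1 : u = 1
  · rw [h1]
  · rw [hc u hu h1, hcΦ]

end Cfsg.Agent.Lib.Helper67.BrL1
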