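import Mathlib
import Cfsg.Prelude.Def_Blocks
import Cfsg.Agent.Lib.CT.Orth
import Cfsg.Agent.Lib.CT.Clifford

set_option autoImplicit false
set_option linter.style.haveILetI false

/-! Pieces [L2] and [L4] of S4503 (helper74's split): a character whose degree is at most the sum
of the degrees of some of its irreducible constituents is the sum of these constituents; the sum
of multiplicities is at most the degree. -/

namespace Cfsg.Agent.Lib.Helper67.BrL24

open Cfsg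
open scoped ComplexConjugate
open Cfsg.Agent.Lib.CT.Orth Cfsg.Agent.Lib.CT.Wedderburn Cfsg.Agent.Lib.CT.Clifford

universe u

/-- Degree expansion: `charDegree Φ = ∑ m φ * charDegree φ`. -/
theorem degree_expand {H : Type u} [Group H] [Fintype H] [Fintype (IrrCharacter H)] (Φ : H → ℂ)
    (hΦ : IsCharacter H Φ) (m : IrrCharacter H → ℕ)
    (hm : ∀ φ : IrrCharacter H, classInner Φ (φ : H → ℂ) = m φ) :
    charDegree Φ = ∑ φ : IrrCharacter H, m φ * charDegree (φ : H → ℂ) := by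
  have h1 := classFunction_expand_sum Φ (char_isClassFunction hΦ) 1
  have h2 : ((charDegree Φ : ℕ) : ℂ)
      = ((∑ φ : IrrCharacter H, m φ * charDegree (φ : H → ℂ) : ℕ) : ℂ) := by
    rw [char_natCast_charDegree hΦ, h1, Nat.cast_sum]
    refine Finset.sum_congr rfl (fun φ _ => ?_)
    rw [hm φ, Nat.cast_mul, char_natCast_charDegree (isCharacter_of_irr φ.2)]
  exact_mod_cast h2

/-- [L4] -/
theorem sum_inner_le_degree {H : Type u} [Group H] [Fintype H] (Φ : H → ℂ) (hΦ : IsCharacter H Φ)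
    (S : Finset (IrrCharacter H)) :
    ∑ φ ∈ S, (classInner Φ (φ : H → ℂ)).re ≤ (charDegree Φ : ℝ) := by
  classical
  have : Finite (IrrCharacter H) := finite_irrCharacter H
  letI : Fintype (IrrCharacter H) := Fintype.ofFinite _
  have hm : ∀ φ : IrrCharacter H, ∃ m : ℕ, classInner Φ (φ : H → ℂ) = m :=
    fun φ => classInner_char_nat hΦ (isCharacter_of_irr φ.2)
  choose m hm using hm
  rw [degree_expand Φ hΦ m hm]
  have h1 : ∑ φ ∈ S, (classInner Φ (φ : H → ℂ)).re = ((∑ φ ∈ S, m φ : ℕ) : ℝ) := by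
    rw [Nat.cast_sum]
    exact Finset.sum_congr rfl (fun φ _ => by rw [hm φ, Complex.natCast_re])
  rw [h1]
  have h2 : ∑ φ ∈ S, m φ ≤ ∑ φ : IrrCharacter H, m φ * charDegree (φ : H → ℂ) := by
    calc ∑ φ ∈ S, m φ ≤ ∑ φ ∈ S, m φ * charDegree (φ : H → ℂ) :=
          Finset.sum_le_sum (fun φ _ => Nat.le_mul_of_pos_right _ (irr_charDegree_pos φ.2))
      _ ≤ ∑ φ : IrrCharacter H, m φ * charDegree (φ : H → ℂ) :=
          Finset.sum_le_sum_of_subset (Finset.subset_univ S)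
  exact_mod_cast h2

/-- [L2] -/
theorem eq_sum_of_degree_le {H : Type u} [Group H] [Fintype H] (Φ : H → ℂ) (hΦ : IsCharacter H Φ)
    (S : Finset (IrrCharacter H)) (hS : ∀ φ ∈ S, classInner Φ (φ : H → ℂ) ≠ 0)
    (hdeg : charDegree Φ ≤ ∑ φ ∈ S, charDegree (φ : H → ℂ)) :
    (∀ h : H, Φ h = ∑ φ ∈ S, (φ : H → ℂ) h) ∧ classInner Φ Φ = (S.card : ℂ) := by
  classical
  have : Finite (IrrCharacter H) := finite_irrCharacter H
  letI : Fintype (IrrCharacter H) := Fintype.ofFinite _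
  have hm : ∀ φ : IrrCharacter H, ∃ m : ℕ, classInner Φ (φ : H → ℂ) = m :=
    fun φ => classInner_char_nat hΦ (isCharacter_of_irr φ.2)
  choose m hm using hm
  have hd := degree_expand Φ hΦ m hm
  have hmS : ∀ φ ∈ S, 1 ≤ m φ := by
    intro φ hφ
    have h := hS φ hφ
    rw [hm φ] at h
    exact Nat.one_le_iff_ne_zero.2 (by exact_mod_cast h)
  have hsplit : ∑ φ : IrrCharacter H, m φ * charDegree (φ : H → ℂ)
      = ∑ φ ∈ S, m φ * charDegree (φ : H → ℂ) + ∑ φ ∈ Sᶜ, m φ * charDegree (φ : H → ℂ) :=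
    (Finset.sum_add_sum_compl S _).symm
  have hle : ∑ φ ∈ S, charDegree (φ : H → ℂ) ≤ ∑ φ ∈ S, m φ * charDegree (φ : H → ℂ) :=
    Finset.sum_le_sum (fun φ hφ => Nat.le_mul_of_pos_left _ (hmS φ hφ))
  have hc0 : ∑ φ ∈ Sᶜ, m φ * charDegree (φ : H → ℂ) = 0 := by omega
  have heq : ∑ φ ∈ S, charDegree (φ : H → ℂ) = ∑ φ ∈ S, m φ * charDegree (φ : H → ℂ) := by omega
  have hm0 : ∀ φ, φ ∉ S → m φ = 0 := by
    intro φ hφ
    have h := (Finset.sum_eq_zero_iff.1 hc0) φ (Finset.mem_compl.2 hφ)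
    rcases Nat.mul_eq_zero.1 h with h | h
    · exact h
    · exact absurd h (irr_charDegree_pos φ.2).ne'
  have hm1 : ∀ φ ∈ S, m φ = 1 := by
    intro φ hφ
    have h := (Finset.sum_eq_sum_iff_of_le
      (fun φ hφ => Nat.le_mul_of_pos_left _ (hmS φ hφ))).1 heq φ hφ
    have hpos := irr_charDegree_pos φ.2
    have h' : 1 * charDegree (φ : H → ℂ) = m φ * charDegree (φ : H → ℂ) := by rw [one_mul]; exact h
    exact (Nat.eq_of_mul_eq_mul_right hpos h').symm
  have hΦ' : ∀ h : H, Φ h = ∑ φ ∈ S, (φ : H → ℂ) h := by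
    intro h
    rw [classFunction_expand_sum Φ (char_isClassFunction hΦ) h,
      ← Finset.sum_subset (Finset.subset_univ S)]
    · exact Finset.sum_congr rfl (fun φ hφ => by rw [hm φ, hm1 φ hφ]; simp)
    · intro φ _ hφ
      rw [hm φ, hm0 φ hφ]; simp
  refine ⟨hΦ', ?_⟩
  have hfun : Φ = ∑ φ ∈ S, (φ : H → ℂ) := by
    funext h; rw [hΦ' h, Finset.sum_apply]
  have h1 : classInner Φ Φ = classInner (∑ φ ∈ S, (φ : H → ℂ)) Φ := by rw [← hfun]
  rw [h1, classInner_sum_left]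
  have h2 : ∀ φ ∈ S, classInner (φ : H → ℂ) Φ = 1 := by
    intro φ hφ
    rw [classInner_conj_symm, hm φ, hm1 φ hφ]; simp
  rw [Finset.sum_congr rfl h2]; simp

end Cfsg.Agent.Lib.Helper67.BrL24
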