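import Mathlib
import Cfsg.Agent.Lib.Helper76.BrRBStmt

/-!
# S4504 / RES: the values of `ξ` on `P` are Gauss periods
-/

set_option autoImplicit false
universe u

namespace Cfsg.Agent.Lib.Helper67.BrRBRES

open Cfsg
open Cfsg.Agent.Lib.Helper76.BrRB

/-- the number of nonzero squares of `ZMod p` is at most `(p - 1) / 2` -/
theorem card_sq_le (p : ℕ) [Fact p.Prime] (hp2 : p ≠ 2) (Sq : Finset (ZMod p))
    (hSq : ∀ s, s ∈ Sq ↔ (s ≠ 0 ∧ IsSquare s)) : Sq.card ≤ (p - 1) / 2 := by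
  classical
  have hp : p.Prime := Fact.out
  have hodd : p % 2 = 1 := by
    rcases hp.eq_two_or_odd with h | h
    · exact absurd h hp2
    · exact h
  have hsub : Sq ⊆ (Finset.Icc 1 ((p - 1) / 2)).image (fun t : ℕ => ((t : ZMod p)) ^ 2) := by
    intro s hs
    obtain ⟨hs0, r, hr⟩ := (hSq s).mp hs
    have hr0 : r ≠ 0 := by
      rintro rfl
      exact hs0 (by rw [hr, mul_zero])
    have hv0 : 0 < r.val := by
      rcases Nat.eq_zero_or_pos r.val with h | h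
      · exact absurd ((ZMod.val_eq_zero r).mp h) hr0
      · exact h
    have hvp : r.val < p := ZMod.val_lt r
    rw [Finset.mem_image]
    by_cases hle : r.val ≤ (p - 1) / 2
    · refine ⟨r.val, Finset.mem_Icc.mpr ⟨hv0, hle⟩, ?_⟩
      rw [ZMod.natCast_zmod_val, hr, sq]
    · refine ⟨p - r.val, Finset.mem_Icc.mpr ⟨by omega, by omega⟩, ?_⟩
      rw [Nat.cast_sub hvp.le, ZMod.natCast_self, ZMod.natCast_zmod_val, zero_sub, hr, sq,
        neg_mul_neg]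
  calc Sq.card ≤ ((Finset.Icc 1 ((p - 1) / 2)).image (fun t : ℕ => ((t : ZMod p)) ^ 2)).card :=
        Finset.card_le_card hsub
    _ ≤ (Finset.Icc 1 ((p - 1) / 2)).card := Finset.card_image_le
    _ = (p - 1) / 2 := by simp

theorem pow_mod_of {M : Type*} [Monoid M] (ζ : M) (r : ℕ) (hζr : ζ ^ r = 1) (a : ℕ) :
    ζ ^ (a % r) = ζ ^ a := by
  conv_rhs => rw [← Nat.div_add_mod a r, pow_add, pow_mul, hζr, one_pow, one_mul]

theorem main (hINJ : INJ.{u}) (hFUS : FUS.{u}) : RES.{u} := by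
  intro L _ _ p _ c S ψ₀ hOrb hrel x hx hx1
  classical
  obtain ⟨hψ1, hScard, hsum, hconj⟩ := id hOrb
  have hp : p.Prime := Fact.out
  have hp5 := c.hp5
  have hp2 : p ≠ 2 := by omega
  -- `P` is commutative, so `P ≤ C`
  have hPC : (c.P : Subgroup L) ≤ Subgroup.centralizer ((c.P : Subgroup L) : Set L) := by
    have hcyc : IsCyclic ↥(c.P : Subgroup L) := isCyclic_of_prime_card c.hP
    intro a ha
    rw [Subgroup.mem_centralizer_iff]
    intro b hb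
    letI := @IsCyclic.commGroup ↥(c.P : Subgroup L) _ hcyc
    exact congrArg Subtype.val (mul_comm (⟨b, hb⟩ : ↥(c.P : Subgroup L)) ⟨a, ha⟩)
  -- every element of `P` is a power of `x`
  have hpow : ∀ u : ↥(c.P : Subgroup L), ∃ j : ℕ, (⟨x, hx⟩ : ↥(c.P : Subgroup L)) ^ j = u := by
    intro u
    have h1 : u ∈ Submonoid.powers (⟨x, hx⟩ : ↥(c.P : Subgroup L)) :=
      mem_powers_of_prime_card c.hP (by
        intro h
        exact hx1 (congrArg Subtype.val h))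
    exact (Submonoid.mem_powers_iff _ _).mp h1
  have hxp : (⟨x, hx⟩ : ↥(c.P : Subgroup L)) ^ p = 1 := by
    have h1 := pow_card_eq_one' (G := ↥(c.P : Subgroup L)) (x := ⟨x, hx⟩)
    rwa [c.hP] at h1
  obtain ⟨ζ, hζdef⟩ : ∃ ζ : ℂ, ζ = ((ψ₀ ⟨x, hx⟩ : ℂˣ) : ℂ) := ⟨_, rfl⟩
  have hζp : ζ ^ p = 1 := by
    rw [hζdef, ← Units.val_pow_eq_pow_val, ← map_pow, hxp, map_one, Units.val_one]
  have hζ1 : ζ ≠ 1 := by
    intro h1
    apply hψ1
    ext u
    obtain ⟨j, rfl⟩ := hpow u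
    rw [map_pow, MonoidHom.one_apply, Units.val_pow_eq_pow_val, ← hζdef, h1, one_pow,
      Units.val_one]
  have hζprim : IsPrimitiveRoot ζ p := by
    have h1 : orderOf ζ = p := orderOf_eq_prime hζp hζ1
    rw [← h1]
    exact IsPrimitiveRoot.orderOf ζ
  have hmem : ∀ a : ℕ, x ^ a ∈ Subgroup.centralizer ((c.P : Subgroup L) : Set L) := fun a =>
    hPC (Subgroup.pow_mem _ hx a)
  have h2rel : 2 * (Subgroup.centralizer ((c.P : Subgroup L) : Set L)).relIndex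
      (Subgroup.normalizer ((c.P : Subgroup L) : Set L)) + 1 = p := by
    rw [hrel]
    exact c.hdeg
  -- the exponents
  have hj : ∀ μ ∈ S, ∃ j : ℕ, ((j : ℕ) : ZMod p) ≠ 0 ∧ IsSquare ((j : ℕ) : ZMod p) ∧
      ∀ a : ℕ, ((μ ⟨x ^ a, hmem a⟩ : ℂˣ) : ℂ) = ζ ^ (a * j) := by
    intro μ hμ
    obtain ⟨n, hn, hμn⟩ := hconj μ hμ
    have hnx : n * x * n⁻¹ ∈ (c.P : Subgroup L) := (Subgroup.mem_normalizer_iff.mp hn x).mp hx
    obtain ⟨j, hj⟩ := hpow ⟨n * x * n⁻¹, hnx⟩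
    have hj' : n * x * n⁻¹ = x ^ j := by
      have h1 := congrArg Subtype.val hj
      exact h1.symm
    refine ⟨j, ?_, hFUS p c.P c.hP h2rel x n j hx hx1 hj', ?_⟩
    · intro h0
      rw [ZMod.natCast_eq_zero_iff] at h0
      obtain ⟨t, rfl⟩ := h0
      rw [pow_mul] at hj'
      have h2 : (⟨x, hx⟩ : ↥(c.P : Subgroup L)) ^ p = 1 := hxp
      have h3 : x ^ p = 1 := by
        have h4 := congrArg Subtype.val h2
        exact h4
      have h5 : n * x * n⁻¹ = 1 := by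
        rw [hj', h3, one_pow]
      apply hx1
      have h6 : x = n⁻¹ * (n * x * n⁻¹) * n := by group
      rw [h6, h5]
      group
    · intro a
      have h1 := hμn (⟨x, hx⟩ ^ a) (⟨x, hx⟩ ^ (j * a)) ⟨x ^ a, hmem a⟩ rfl (by
        show x ^ (j * a) = n * x ^ a * n⁻¹
        rw [pow_mul, ← hj', conj_pow])
      rw [h1, map_pow, Units.val_pow_eq_pow_val, ← hζdef, mul_comm]
  choose! J hJ using hj
  obtain ⟨Sq, hSqdef⟩ : ∃ Sq : Finset (ZMod p),
      Sq = Finset.univ.filter (fun s : ZMod p => s ≠ 0 ∧ IsSquare s) := ⟨_, rfl⟩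
  have hSq : ∀ s, s ∈ Sq ↔ (s ≠ 0 ∧ IsSquare s) := by
    intro s
    rw [hSqdef, Finset.mem_filter]
    simp
  have hinj : Set.InjOn (fun μ : ↥(Subgroup.centralizer ((c.P : Subgroup L) : Set L)) →* ℂˣ =>
      ((J μ : ℕ) : ZMod p)) (S : Set _) := by
    intro μ hμ μ' hμ' heq
    have heq' : J μ % p = J μ' % p := (ZMod.natCast_eq_natCast_iff' _ _ _).mp heq
    apply hINJ p c S ψ₀ hOrb hrel μ hμ μ' hμ'
    intro k hk
    obtain ⟨a, ha⟩ := hpow ⟨(k : L), hk⟩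
    have hk' : k = ⟨x ^ a, hmem a⟩ := by
      apply Subtype.ext
      have h1 := congrArg Subtype.val ha
      exact h1.symm
    apply Units.ext
    rw [hk', (hJ μ hμ).2.2 a, (hJ μ' hμ').2.2 a, mul_comm a, mul_comm a, pow_mul, pow_mul,
      ← pow_mod_of ζ p hζp (J μ), ← pow_mod_of ζ p hζp (J μ'), heq']
  have himg : S.image (fun μ => ((J μ : ℕ) : ZMod p)) = Sq := by
    apply Finset.eq_of_subset_of_card_le
    · intro s hs
      obtain ⟨μ, hμ, rfl⟩ := Finset.mem_image.mp hs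
      exact (hSq _).mpr ⟨(hJ μ hμ).1, (hJ μ hμ).2.1⟩
    · rw [Finset.card_image_of_injOn hinj, hScard]
      have h1 := card_sq_le p hp2 Sq hSq
      have h2 := c.hdeg
      omega
  refine ⟨ζ, hζprim, fun a => ?_⟩
  have h1 := hsum ⟨x ^ a, hmem a⟩
  have h2 : c.ξ (x ^ a) = ∑ μ ∈ S, ((μ ⟨x ^ a, hmem a⟩ : ℂˣ) : ℂ) := h1
  rw [h2]
  have h3 : ∑ s ∈ Finset.univ.filter (fun s : ZMod p => s ≠ 0 ∧ IsSquare s), ζ ^ (a * s.val)
      = ∑ s ∈ Sq, ζ ^ (a * s.val) := by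
    rw [hSqdef]
  rw [h3, ← himg, Finset.sum_image hinj]
  refine Finset.sum_congr rfl (fun μ hμ => ?_)
  rw [(hJ μ hμ).2.2 a, ZMod.val_natCast, mul_comm a, mul_comm a, pow_mul, pow_mul,
    pow_mod_of ζ p hζp (J μ)]

end Cfsg.Agent.Lib.Helper67.BrRBRES
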