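import Cfsg.Agent.Lib.Helper92.D11Stmt

/-!
S0679 piece ODDINV: a group of order 15840 and degree 11 whose non-trivial even elements move at
least 8 points contains an involution moving exactly 2 or exactly 6 points.
-/

set_option autoImplicit false

namespace Cfsg.Agent.Lib.Helper67.D11ODDINV

open Equiv Cfsg.Agent.Lib.Helper92.D11Stmt

universe u

/-- An involution with sign `-1` and support of at most 7 points moves 2 or 6 points. -/
theorem inv_support {α : Type u} [Fintype α] [DecidableEq α] (s : Perm α) (hss : s * s = 1)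
    (hs1 : s ≠ 1) (hsign : Perm.sign s = -1) (hcard : s.support.card ≤ 7) :
    s.support.card = 2 ∨ s.support.card = 6 := by
  have : Fact (Nat.Prime 2) := ⟨Nat.prime_two⟩
  have ho : orderOf s = 2 := orderOf_eq_prime (by rw [pow_two]; exact hss) hs1
  obtain ⟨n, hn⟩ := Perm.cycleType_prime_order (σ := s) (by rw [ho]; exact Nat.prime_two)
  rw [ho] at hn
  have hsum : s.cycleType.sum = s.support.card := Perm.sum_cycleType s
  have hsg := Perm.sign_of_cycleType s
  rw [hn, Multiset.sum_replicate, Multiset.card_replicate, smul_eq_mul] at hsg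
  rw [hn, Multiset.sum_replicate, smul_eq_mul] at hsum
  rw [hsign] at hsg
  have hn2 : n ≤ 2 := by omega
  interval_cases n
  · left; omega
  · exfalso; revert hsg; decide
  · right; omega

theorem main : OddInv.{u} := by
  intro α _ _ hα G hG hsharp
  have : Finite G := Nat.finite_of_card_ne_zero (by rw [hG]; norm_num)
  have : Fintype G := Fintype.ofFinite G
  obtain ⟨x⟩ : Nonempty (Fin 4 ↪ α) :=
    Function.Embedding.nonempty_of_card_le (by rw [Fintype.card_fin, hα]; norm_num)
  have hcard : Fintype.card (Fin 4 ↪ α) < Fintype.card G := by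
    rw [Fintype.card_embedding_eq, ← Nat.card_eq_fintype_card (α := G), hG, hα, Fintype.card_fin]
    decide
  obtain ⟨g₁, g₂, hne, heq⟩ := Fintype.exists_ne_map_eq_of_card_lt
    (fun g : G => x.trans (g : Perm α).toEmbedding) hcard
  have hx : ∀ i, (g₁ : Perm α) (x i) = (g₂ : Perm α) (x i) := fun i => DFunLike.congr_fun heq i
  obtain ⟨s, hs⟩ : ∃ s : Perm α, s = (g₁ : Perm α)⁻¹ * (g₂ : Perm α) := ⟨_, rfl⟩
  have hsG : s ∈ G := by rw [hs]; exact G.mul_mem (G.inv_mem g₁.2) g₂.2
  have hs1 : s ≠ 1 := by
    intro h
    apply hne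
    rw [hs, inv_mul_eq_one] at h
    exact Subtype.ext h
  have hfix : ∀ i, s (x i) = x i := by
    intro i
    rw [hs, Perm.mul_apply, ← hx i]; simp
  have hsupp : s.support ⊆ (Finset.univ.map x)ᶜ := by
    intro a ha
    rw [Finset.mem_compl]
    intro hmem
    obtain ⟨i, -, rfl⟩ := Finset.mem_map.mp hmem
    exact (Perm.mem_support.mp ha) (hfix i)
  have hle : s.support.card ≤ 7 := by
    have h := Finset.card_le_card hsupp
    rw [Finset.card_compl, Finset.card_map, Finset.card_univ, Fintype.card_fin, hα] at h
    exact h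
  have hsign : Perm.sign s = -1 := by
    rcases Int.units_eq_one_or (Perm.sign s) with h | h
    · have := hsharp s hsG h hs1
      omega
    · exact h
  have hss : s * s = 1 := by
    by_contra h
    have h1 : Perm.sign (s * s) = 1 := by rw [map_mul, hsign]; decide
    have h2 := hsharp (s * s) (G.mul_mem hsG hsG) h1 h
    have h3 : (s * s).support ⊆ s.support := by
      have := Perm.support_mul_le s s
      rwa [sup_idem] at this
    have h4 := Finset.card_le_card h3
    omega
  exact ⟨s, hsG, hss, inv_support s hss hs1 hsign hle⟩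

end Cfsg.Agent.Lib.Helper67.D11ODDINV
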