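import Cfsg.Agent.Lib.Helper92.D11Stmt

/-!
S0679 piece ODDNORM: if the normalizer of a subgroup of order 11 has even order, then `G`
contains an odd permutation.
-/

set_option autoImplicit false

namespace Cfsg.Agent.Lib.Helper67.D11ODDNORM

open Equiv Cfsg.Agent.Lib.Helper92.D11Stmt

universe u

/-- A permutation of order 11 of 11 points is a cycle without fixed point. -/
theorem full_cycle {α : Type u} [Fintype α] [DecidableEq α] (hα : Fintype.card α = 11)
    (π : Perm α) (ho : orderOf π = 11) : π.IsCycle ∧ ∀ a, π a ≠ a := by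
  obtain ⟨n, hn⟩ := Perm.cycleType_prime_order (σ := π) (by rw [ho]; norm_num)
  rw [ho] at hn
  have hsum : π.cycleType.sum = π.support.card := Perm.sum_cycleType π
  rw [hn, Multiset.sum_replicate, smul_eq_mul] at hsum
  have hle : π.support.card ≤ 11 := by rw [← hα]; exact Finset.card_le_univ _
  have hn0 : n = 0 := by omega
  subst hn0
  refine ⟨Perm.card_cycleType_eq_one.mp (by rw [hn]; rfl), ?_⟩
  have huniv : π.support = Finset.univ := Finset.eq_univ_of_card _ (by rw [hα]; omega)
  intro a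
  exact Perm.mem_support.mp (by rw [huniv]; exact Finset.mem_univ a)

/-- A permutation commuting with a full cycle and fixing a point is trivial. -/
theorem eq_one_of_commute {α : Type u} [Fintype α] [DecidableEq α] (ρ τ : Perm α)
    (hρ : ρ.IsCycle) (hfull : ∀ a, ρ a ≠ a) (hc : τ * ρ = ρ * τ) (c : α) (hτc : τ c = c) :
    τ = 1 := by
  ext a
  obtain ⟨i, hi⟩ := hρ.exists_pow_eq (hfull c) (hfull a)
  have hcomm : Commute τ (ρ ^ i) := (show Commute τ ρ from hc).pow_right i
  have e : τ ((ρ ^ i) c) = (ρ ^ i) (τ c) := by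
    rw [← Perm.mul_apply, ← Perm.mul_apply, hcomm.eq]
  rw [← hi, e, hτc, Perm.one_apply]

theorem main : OddNorm.{u} := by
  intro α _ _ hα G Q hQ heven
  have hf2 : Fact (Nat.Prime 2) := ⟨Nat.prime_two⟩
  have hf11 : Fact (Nat.Prime 11) := ⟨by norm_num⟩
  have hQfin : Finite Q := Nat.finite_of_card_ne_zero (by rw [hQ]; norm_num)
  have hNfin : Finite (Subgroup.normalizer (Q : Set G)) := inferInstance
  -- an involution of the normalizer
  obtain ⟨t, ht⟩ := exists_prime_orderOf_dvd_card' (G := Subgroup.normalizer (Q : Set G)) 2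
    heven.two_dvd
  obtain ⟨τ, hτ⟩ : ∃ τ : Perm α, τ = ((t : G) : Perm α) := ⟨_, rfl⟩
  have hτo : orderOf τ = 2 := by
    rw [hτ, Subgroup.orderOf_coe, Subgroup.orderOf_coe, ht]
  have hτG : τ ∈ G := by rw [hτ]; exact (t : G).2
  rcases Int.units_eq_one_or (Perm.sign τ) with hsg | hsg
  swap
  · exact ⟨τ, hτG, hsg⟩
  exfalso
  -- the cycle type of `τ`
  obtain ⟨k, hk⟩ := Perm.cycleType_prime_order (σ := τ) (by rw [hτo]; exact Nat.prime_two)
  rw [hτo] at hk
  have hsum : τ.cycleType.sum = τ.support.card := Perm.sum_cycleType τ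
  have hsg' := Perm.sign_of_cycleType τ
  rw [hk, Multiset.sum_replicate, Multiset.card_replicate, smul_eq_mul] at hsg'
  rw [hk, Multiset.sum_replicate, smul_eq_mul] at hsum
  rw [hsg] at hsg'
  have hle : τ.support.card ≤ 11 := by rw [← hα]; exact Finset.card_le_univ _
  have hsupp : τ.support.card ≤ 8 := by
    have hk5 : k ≤ 4 := by omega
    interval_cases k
    · exfalso; revert hsg'; decide
    · omega
    · exfalso; revert hsg'; decide
    · omega
    · exfalso; revert hsg'; decide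
  -- two fixed points
  have hfixcard : 1 < (τ.support)ᶜ.card := by
    rw [Finset.card_compl, hα]; omega
  obtain ⟨c, hc, d, hd, hcd⟩ := Finset.one_lt_card.mp hfixcard
  have hτc : τ c = c := by
    by_contra h
    exact (Finset.mem_compl.mp hc) (Perm.mem_support.mpr h)
  have hτd : τ d = d := by
    by_contra h
    exact (Finset.mem_compl.mp hd) (Perm.mem_support.mpr h)
  -- nontrivial elements of `Q` have no fixed point
  have hQfix : ∀ q : Q, q ≠ 1 → orderOf (((q : G) : Perm α)) = 11 := by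
    intro q hq
    rw [Subgroup.orderOf_coe, Subgroup.orderOf_coe]
    have hdvd : orderOf q ∣ 11 := by rw [← hQ]; exact orderOf_dvd_natCard q
    rcases (Nat.dvd_prime (by norm_num : Nat.Prime 11)).mp hdvd with h | h
    · exact absurd (orderOf_eq_one_iff.mp h) hq
    · exact h
  -- a generator of `Q`
  obtain ⟨q₀, hq₀⟩ := exists_prime_orderOf_dvd_card' (G := Q) 11 (by rw [hQ])
  have hq₀1 : q₀ ≠ 1 := by
    intro h
    rw [h, orderOf_one] at hq₀
    norm_num at hq₀
  obtain ⟨hσcyc, hσfull⟩ := full_cycle hα _ (hQfix q₀ hq₀1)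
  obtain ⟨i, hi⟩ := hσcyc.exists_pow_eq (hσfull c) (hσfull d)
  obtain ⟨r, hr⟩ : ∃ r : Q, r = q₀ ^ i := ⟨_, rfl⟩
  have hrc : (((r : G) : Perm α)) c = d := by
    rw [hr]
    simpa using hi
  have hr1 : r ≠ 1 := by
    intro h
    rw [h] at hrc
    exact hcd (by simpa using hrc)
  -- `t` normalizes `Q`
  have hnorm : (t : G) * (r : G) * (t : G)⁻¹ ∈ Q :=
    (Subgroup.mem_normalizer_iff.mp t.2 (r : G)).mp r.2
  obtain ⟨r', hr'⟩ : ∃ r' : Q, (r' : G) = (t : G) * (r : G) * (t : G)⁻¹ := ⟨⟨_, hnorm⟩, rfl⟩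
  have hπ : r' * r⁻¹ = 1 := by
    by_contra hne
    obtain ⟨-, hfull⟩ := full_cycle hα _ (hQfix _ hne)
    apply hfull d
    have e : (((r' * r⁻¹ : Q) : G) : Perm α) = τ * ((r : G) : Perm α) * τ⁻¹ * (((r : G) : Perm α))⁻¹ := by
      rw [Subgroup.coe_mul, hr', hτ]
      simp
    rw [e]
    simp only [Perm.mul_apply]
    have e1 : (((r : G) : Perm α))⁻¹ d = c := by
      rw [← hrc]; simp
    have e2 : τ⁻¹ c = c := by
      rw [Perm.inv_eq_iff_eq]; exact hτc.symm
    rw [e1, e2, hrc, hτd]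
  have hrr : r' = r := by
    rw [mul_inv_eq_one] at hπ
    exact hπ
  have hcomm : τ * ((r : G) : Perm α) = ((r : G) : Perm α) * τ := by
    have e0 : (r : G) = (t : G) * (r : G) * (t : G)⁻¹ := by rw [← hr', hrr]
    have e : (t : G) * (r : G) = (r : G) * (t : G) := by
      calc (t : G) * (r : G) = (t : G) * (r : G) * (t : G)⁻¹ * (t : G) := by
            rw [inv_mul_cancel_right]
        _ = (r : G) * (t : G) := by rw [← e0]
    have e' := congrArg (fun g : G => (g : Perm α)) e
    simpa [hτ] using e'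
  obtain ⟨hρcyc, hρfull⟩ := full_cycle hα _ (hQfix r hr1)
  have hτ1 : τ = 1 := eq_one_of_commute _ τ hρcyc hρfull hcomm c hτc
  rw [hτ1, orderOf_one] at hτo
  norm_num at hτo

end Cfsg.Agent.Lib.Helper67.D11ODDNORM
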