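import Mathlib
import Cfsg.Agent.Lib.Helper75.DCStmt

/-!
# S4719 / PGZ: a central subgroup of order `p` on which two commuting involutions act as the
identity or the inversion
-/

set_option autoImplicit false
universe u

namespace Cfsg.Agent.Lib.Helper67.DCPGZ

open Cfsg.Agent.Lib.Helper75.DCStmt

/-- an element `v` with `v * v = 1` acting on an abelian group `B ≠ 1`: either `C_B(v) ≠ 1`, or
`v` inverts `B` -/
theorem step {Γ : Type*} [Group Γ] (B : Subgroup Γ) (hcomm : ∀ a ∈ B, ∀ b ∈ B, a * b = b * a)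
    (v : Γ) (hv : v * v = 1) (hvB : ∀ x ∈ B, v * x * v⁻¹ ∈ B) (hB : B ≠ ⊥) :
    ∃ B₁ : Subgroup Γ, B₁ ≤ B ∧ B₁ ≠ ⊥ ∧
      ((∀ z ∈ B₁, v * z * v⁻¹ = z) ∨ (∀ z ∈ B₁, v * z * v⁻¹ = z⁻¹)) ∧
      (B₁ = B ∨ B₁ = B ⊓ Subgroup.centralizer ({v} : Set Γ)) := by
  have hvinv : v⁻¹ = v := inv_eq_of_mul_eq_one_left hv
  by_cases h : B ⊓ Subgroup.centralizer ({v} : Set Γ) = ⊥
  · refine ⟨B, le_refl B, hB, Or.inr ?_, Or.inl rfl⟩
    intro a ha
    have hva := hvB a ha
    have ht : a * (v * a * v⁻¹) ∈ B ⊓ Subgroup.centralizer ({v} : Set Γ) := by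
      refine Subgroup.mem_inf.mpr ⟨B.mul_mem ha hva, ?_⟩
      rw [Subgroup.mem_centralizer_iff]
      intro y hy
      rw [Set.mem_singleton_iff] at hy
      rw [hy]
      have h1 : v * (a * (v * a * v⁻¹)) = (v * a * v⁻¹) * a * v := by
        rw [hvinv]
        calc v * (a * (v * a * v)) = v * a * v * a * v := by group
          _ = v * a * v * a * v := rfl
      rw [h1, hcomm _ hva a ha]
    rw [h, Subgroup.mem_bot] at ht
    exact eq_inv_of_mul_eq_one_right ht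
  · refine ⟨B ⊓ Subgroup.centralizer ({v} : Set Γ), inf_le_left, h, Or.inl ?_, Or.inr rfl⟩
    intro z hz
    have h1 := (Subgroup.mem_centralizer_iff.mp (Subgroup.mem_inf.mp hz).2) v
      (Set.mem_singleton v)
    rw [h1, mul_inv_cancel_right]

theorem main : PGZ.{u} := by
  intro Γ _ _ p hp hp2 P v w hP hPne hv hw hvw hvP hwP
  haveI : Fact p.Prime := ⟨hp⟩
  have hvinv : v⁻¹ = v := inv_eq_of_mul_eq_one_left hv
  have hwinv : w⁻¹ = w := inv_eq_of_mul_eq_one_left hw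
  -- the centre of `P`
  obtain ⟨A, hAdef⟩ : ∃ A : Subgroup Γ, A = (Subgroup.center ↥P).map P.subtype := ⟨_, rfl⟩
  have hA : ∀ a, a ∈ A ↔ a ∈ P ∧ ∀ x ∈ P, x * a = a * x := by
    intro a
    rw [hAdef, Subgroup.mem_map]
    constructor
    · rintro ⟨z, hz, rfl⟩
      refine ⟨z.2, fun r hr => ?_⟩
      have h1 := Subgroup.mem_center_iff.mp hz ⟨r, hr⟩
      exact congrArg Subtype.val h1
    · rintro ⟨haP, hcomm⟩
      refine ⟨⟨a, haP⟩, ?_, rfl⟩
      rw [Subgroup.mem_center_iff]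
      intro r
      exact Subtype.ext (hcomm r r.2)
  have hAne : A ≠ ⊥ := by
    have : Nontrivial ↥P := (Subgroup.nontrivial_iff_ne_bot P).mpr hPne
    have hc : Nontrivial (Subgroup.center ↥P) := hP.center_nontrivial
    have hc' : Subgroup.center ↥P ≠ ⊥ := (Subgroup.nontrivial_iff_ne_bot _).mp hc
    intro hbot
    apply hc'
    rw [hAdef] at hbot
    exact (Subgroup.map_eq_bot_iff_of_injective _ P.subtype_injective).mp hbot
  have hAcomm : ∀ a ∈ A, ∀ b ∈ A, a * b = b * a := fun a ha b hb =>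
    ((hA b).mp hb).2 a ((hA a).mp ha).1
  have hinv : ∀ (u : Γ), u⁻¹ = u → (∀ x ∈ P, u * x * u⁻¹ ∈ P) → ∀ x ∈ A, u * x * u⁻¹ ∈ A := by
    intro u hu huP x hx
    rw [hA] at hx ⊢
    refine ⟨huP x hx.1, fun y hy => ?_⟩
    have hy' : u * y * u⁻¹ ∈ P := huP y hy
    have h1 := hx.2 _ hy'
    rw [hu] at h1 ⊢
    have hu2 : u * u = 1 := by
      calc u * u = u⁻¹ * u := by rw [hu]
        _ = 1 := inv_mul_cancel u
    calc y * (u * x * u) = u * ((u * y * u) * x) * u := by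
          rw [show u * ((u * y * u) * x) * u = (u * u) * y * (u * x * u) by group, hu2, one_mul]
      _ = u * (x * (u * y * u)) * u := by rw [h1]
      _ = u * x * u * y * (u * u) := by group
      _ = u * x * u * y := by rw [hu2, mul_one]
  have hvA := hinv v hvinv hvP
  have hwA := hinv w hwinv hwP
  -- first step: `v`
  obtain ⟨A₁, hA₁A, hA₁ne, hA₁v, hA₁eq⟩ := step A hAcomm v hv hvA hAne
  have hwA₁ : ∀ x ∈ A₁, w * x * w⁻¹ ∈ A₁ := by
    intro x hx
    rcases hA₁eq with h | h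
    · rw [h] at hx ⊢
      exact hwA x hx
    · rw [h] at hx ⊢
      obtain ⟨hx1, hx2⟩ := Subgroup.mem_inf.mp hx
      refine Subgroup.mem_inf.mpr ⟨hwA x hx1, ?_⟩
      rw [Subgroup.mem_centralizer_iff] at hx2 ⊢
      intro y hy
      rw [Set.mem_singleton_iff] at hy
      rw [hy]
      have h1 := hx2 v (Set.mem_singleton v)
      calc v * (w * x * w⁻¹) = w * (v * x) * w⁻¹ := by
            rw [show v * (w * x * w⁻¹) = (v * w) * x * w⁻¹ by group, hvw]
            group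
        _ = w * (x * v) * w⁻¹ := by rw [h1]
        _ = w * x * w⁻¹ * v := by
            rw [hwinv]
            rw [show w * (x * v) * w = w * x * (v * w) by group, hvw]
            group
  have hA₁comm : ∀ a ∈ A₁, ∀ b ∈ A₁, a * b = b * a := fun a ha b hb =>
    hAcomm a (hA₁A ha) b (hA₁A hb)
  -- second step: `w`
  obtain ⟨A₂, hA₂A₁, hA₂ne, hA₂w, -⟩ := step A₁ hA₁comm w hw hwA₁ hA₁ne
  -- a subgroup of order `p`
  have hA₂P : A₂ ≤ P := fun x hx => ((hA x).mp (hA₁A (hA₂A₁ hx))).1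
  have hA₂p : IsPGroup p ↥A₂ := hP.to_le hA₂P
  have hdvd : p ∣ Nat.card ↥A₂ := by
    rcases hA₂p.card_eq_or_dvd with h | h
    · exfalso
      exact hA₂ne ((Subgroup.card_eq_one).mp h)
    · exact h
  obtain ⟨g, hg⟩ := exists_prime_orderOf_dvd_card' p hdvd
  refine ⟨Subgroup.zpowers (g : Γ), ?_, ?_, ?_, ?_, ?_⟩
  · rw [Subgroup.zpowers_le]
    exact hA₂P g.2
  · rw [Nat.card_zpowers, Subgroup.orderOf_coe, hg]
  · intro z hz x hx
    have hzA₂ : z ∈ A₂ := (Subgroup.zpowers_le.mpr g.2) hz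
    exact ((hA z).mp (hA₁A (hA₂A₁ hzA₂))).2 x hx
  · rcases hA₁v with h | h
    · left
      intro z hz
      exact h z (hA₂A₁ ((Subgroup.zpowers_le.mpr g.2) hz))
    · right
      intro z hz
      exact h z (hA₂A₁ ((Subgroup.zpowers_le.mpr g.2) hz))
  · rcases hA₂w with h | h
    · left
      intro z hz
      exact h z ((Subgroup.zpowers_le.mpr g.2) hz)
    · right
      intro z hz
      exact h z ((Subgroup.zpowers_le.mpr g.2) hz)

end Cfsg.Agent.Lib.Helper67.DCPGZ
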