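import Mathlib
import Cfsg.Agent.Lib.Helper75.DCStmt

/-!
# S4719 / RG: reduction of Theorem A to the case `Γ = G · ⟨v, w⟩`
-/

set_option autoImplicit false
universe u

namespace Cfsg.Agent.Lib.Helper67.DCRG

open Cfsg.Agent.Lib.Helper75.DCStmt

theorem pow_two_cases {Γ : Type*} [Group Γ] (v : Γ) (hv : v * v = 1) (i : ℕ) :
    v ^ i = 1 ∨ v ^ i = v := by
  rcases Nat.even_or_odd' i with ⟨t, rfl | rfl⟩
  · left
    rw [pow_mul, sq, hv, one_pow]
  · right
    rw [pow_succ, pow_mul, sq, hv, one_pow, one_mul]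

theorem main : RG.{u} := by
  intro a c N hKBg Γ _ _ G v w hS hfac
  haveI := hS.normal
  have hvinv : v⁻¹ = v := inv_eq_of_mul_eq_one_left hS.v_sq
  have hwinv : w⁻¹ = w := inv_eq_of_mul_eq_one_left hS.w_sq
  have hcvw : Commute v w := hS.comm
  obtain ⟨K, hK⟩ : ∃ K : Subgroup Γ, ∀ u, u ∈ K ↔ ∃ i j : ℕ, u = v ^ i * w ^ j :=
    ⟨{ carrier := {u | ∃ i j : ℕ, u = v ^ i * w ^ j}
       one_mem' := ⟨0, 0, by simp⟩
       mul_mem' := by
         rintro _ _ ⟨i, j, rfl⟩ ⟨k, l, rfl⟩
         refine ⟨i + k, j + l, ?_⟩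
         rw [pow_add, pow_add]
         have h1 : w ^ j * v ^ k = v ^ k * w ^ j := ((hcvw.pow_pow k j).eq).symm
         calc v ^ i * w ^ j * (v ^ k * w ^ l) = v ^ i * (w ^ j * v ^ k) * w ^ l := by
               simp only [mul_assoc]
           _ = v ^ i * (v ^ k * w ^ j) * w ^ l := by rw [h1]
           _ = v ^ i * v ^ k * (w ^ j * w ^ l) := by simp only [mul_assoc]
       inv_mem' := by
         rintro _ ⟨i, j, rfl⟩
         refine ⟨i, j, ?_⟩
         rw [mul_inv_rev, ← inv_pow, ← inv_pow, hvinv, hwinv]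
         exact ((hcvw.pow_pow i j).eq).symm }, fun u => Iff.rfl⟩
  have hGle : G ≤ G ⊔ K := le_sup_left
  have hv' : v ∈ G ⊔ K := (le_sup_right : K ≤ G ⊔ K) ((hK v).mpr ⟨1, 0, by simp⟩)
  have hw' : w ∈ G ⊔ K := (le_sup_right : K ≤ G ⊔ K) ((hK w).mpr ⟨0, 1, by simp⟩)
  have hcard : Nat.card ↥(G.subgroupOf (G ⊔ K)) = Nat.card ↥G :=
    Nat.card_congr (Subgroup.subgroupOfEquivOfLe hGle).toEquiv
  have hSet : Setting (G.subgroupOf (G ⊔ K)) (⟨v, hv'⟩ : ↥(G ⊔ K)) ⟨w, hw'⟩ c :=
    { normal := inferInstance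
      v_ne := fun h => hS.v_ne (congrArg Subtype.val h)
      w_ne := fun h => hS.w_ne (congrArg Subtype.val h)
      vw_ne := fun h => hS.vw_ne (congrArg Subtype.val h)
      v_sq := Subtype.ext hS.v_sq
      w_sq := Subtype.ext hS.w_sq
      comm := Subtype.ext hS.comm
      cent := by
        intro x hx
        have hx' : (x : Γ) = v ∨ (x : Γ) = w ∨ (x : Γ) = v * w := by
          rcases hx with h | h | h
          · left
            rw [h]
          · right
            left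
            rw [h]
          · right
            right
            rw [h]
            rfl
        refine le_trans ?_ (hS.cent (x : Γ) hx')
        have hmem : ∀ g : ↥(G ⊔ K),
            g ∈ G.subgroupOf (G ⊔ K) ⊓ Subgroup.centralizer ({x} : Set ↥(G ⊔ K)) →
            (g : Γ) ∈ G ⊓ Subgroup.centralizer ({(x : Γ)} : Set Γ) := by
          intro g hg
          obtain ⟨h1, h2⟩ := Subgroup.mem_inf.mp hg
          refine Subgroup.mem_inf.mpr ⟨Subgroup.mem_subgroupOf.mp h1, ?_⟩
          rw [Subgroup.mem_centralizer_iff] at h2 ⊢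
          intro y hy
          rw [Set.mem_singleton_iff] at hy
          rw [hy]
          exact congrArg Subtype.val (h2 x (Set.mem_singleton x))
        exact Nat.card_le_card_of_injective
          (fun g : ↥(G.subgroupOf (G ⊔ K) ⊓ Subgroup.centralizer ({x} : Set ↥(G ⊔ K))) =>
            (⟨((g : ↥(G ⊔ K)) : Γ), hmem g.1 g.2⟩ :
              ↥(G ⊓ Subgroup.centralizer ({(x : Γ)} : Set Γ))))
          (fun g₁ g₂ h => by
            have h' := congrArg
              (fun t : ↥(G ⊓ Subgroup.centralizer ({(x : Γ)} : Set Γ)) => (t : Γ)) h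
            exact Subtype.ext (Subtype.ext h')) }
  have hGen : Gen (G.subgroupOf (G ⊔ K)) (⟨v, hv'⟩ : ↥(G ⊔ K)) ⟨w, hw'⟩ := by
    intro γ
    have h1 : (γ : Γ) ∈ ((G ⊔ K : Subgroup Γ) : Set Γ) := γ.2
    rw [Subgroup.normal_mul] at h1
    obtain ⟨g, hg, k, hk, hgk⟩ := Set.mem_mul.mp h1
    obtain ⟨i, j, rfl⟩ := (hK k).mp hk
    refine ⟨⟨g, hGle hg⟩, Subgroup.mem_subgroupOf.mpr hg,
      ⟨v ^ i * w ^ j, (le_sup_right : K ≤ G ⊔ K) hk⟩, ?_, Subtype.ext hgk.symm⟩
    rcases pow_two_cases v hS.v_sq i with h2 | h2 <;>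
      rcases pow_two_cases w hS.w_sq j with h3 | h3
    · left
      apply Subtype.ext
      show v ^ i * w ^ j = 1
      rw [h2, h3, mul_one]
    · right
      right
      left
      apply Subtype.ext
      show v ^ i * w ^ j = w
      rw [h2, h3, one_mul]
    · right
      left
      apply Subtype.ext
      show v ^ i * w ^ j = v
      rw [h2, h3, mul_one]
    · right
      right
      right
      apply Subtype.ext
      show v ^ i * w ^ j = v * w
      rw [h2, h3]
  have h := hKBg ↥(G ⊔ K) (G.subgroupOf (G ⊔ K)) ⟨v, hv'⟩ ⟨w, hw'⟩ hSet hGen (by rw [hcard]; exact hfac)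
  rw [hcard] at h
  exact h

end Cfsg.Agent.Lib.Helper67.DCRG
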