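import Mathlib
import Cfsg.Agent.Lib.Helper41.EMStmt
import Cfsg.Agent.Lib.Helper43.GenBlocks
import Cfsg.Agent.Lib.Helper44.NegPairs
import Cfsg.Agent.Lib.Helper45.OmegaCenter

/-!
# S5990 / BLOCKSA: invariant nondegenerate blocks for the minus form, all `q`

Direct instance of the generic `Cfsg.Agent.Lib.Helper43.GenBlocks.blocks_mat` (as
`Helper43.EPBLOCKSA` for the plus form), with `Helper45.OmegaCenter.sep_minusQ'`.
-/

set_option autoImplicit false

universe u

open scoped Matrix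

namespace Cfsg.Agent.Lib.Helper67.EMBLOCKSA

open Cfsg.Agent.Lib.Helper41.EMStmt
open Cfsg.Agent.Lib.Helper37.HypStmt (cc)
open Cfsg.Agent.Lib.Helper45.OMiStmt (M Aniso FxM NDegM StabM)
open Cfsg.Agent.Lib.Helper43.GenBlocks Cfsg.Agent.Lib.Helper44.NegPairs
open Cfsg.Agent.Lib.Helper44.QSpace

theorem main : BlocksA.{u} := by
  intro F _ _ a₀ b₀ hab p _ _ d r _ hr2 hrp x hx hxr j hj
  have hx' : ∀ v : M d → F,
      minusQ (d - 1) F a₀ b₀ ((x : Matrix (M d) (M d) F) *ᵥ v) = minusQ (d - 1) F a₀ b₀ v := by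
    intro v
    exact hx v v
  have hcard : 2 * d ≤ Fintype.card (M d) := by
    simp [M]
    omega
  have hj' : j * cc (orderOf ((Fintype.card F : ℕ) : ZMod r)) +
      Module.finrank F
        ↥(LinearMap.ker (Matrix.toLin' (x : Matrix (M d) (M d) F) - LinearMap.id)) ≤
        Fintype.card (M d) := le_trans hj hcard
  exact blocks_mat p (minusQ (d - 1) F a₀ b₀)
    (Cfsg.Agent.Lib.Helper45.OmegaCenter.sep_minusQ' (d - 1) a₀ b₀ hab) r hr2 hrp x hx' hxr j hj'

end Cfsg.Agent.Lib.Helper67.EMBLOCKSA
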