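import Mathlib
import Cfsg.Agent.Lib.Helper42.LieOrdStmt
import Cfsg.Agent.S0292

set_option autoImplicit false

/-! Piece OO of S2363 (helper42's split): the order bounds for `PΩ_{2m+1}(q)`, `q` odd, `m ≥ 3`. -/

namespace Cfsg.Agent.Lib.Helper67.LieOrdOO

open Cfsg.Agent.Lib.Helper42.LieOrdStmt

universe u

/-- `∏_{i < m} (q^(2(i+1)) - 1) < q^(m(m+1))` for `m ≥ 1`. -/
theorem prod_lt (q : ℕ) (hq : 2 ≤ q) : ∀ m : ℕ, 1 ≤ m →
    ∏ i ∈ Finset.range m, (q ^ (2 * (i + 1)) - 1) < q ^ (m * (m + 1)) := by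
  intro m hm
  induction m, hm using Nat.le_induction with
  | base =>
    simp only [Finset.range_one, Finset.prod_singleton]
    have h : 1 ≤ q ^ (2 * (0 + 1)) := Nat.one_le_pow _ _ (by omega)
    norm_num at h ⊢
    omega
  | succ m hm ih =>
    rw [Finset.prod_range_succ]
    have h1 : 1 ≤ q ^ (2 * (m + 1)) := Nat.one_le_pow _ _ (by omega)
    have e : q ^ ((m + 1) * (m + 1 + 1)) = q ^ (m * (m + 1)) * q ^ (2 * (m + 1)) := by
      rw [← pow_add]; congr 1; ring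
    rw [e]
    exact Nat.mul_lt_mul_of_lt_of_le ih (Nat.sub_le _ _) (by omega)

/-- `p` does not divide `∏_{i < m} (q^(2(i+1)) - 1)`, `q = p^f`. -/
theorem not_dvd_prod {p : ℕ} (hp : p.Prime) (f : ℕ) (hf : 1 ≤ f) (m : ℕ) :
    ¬ p ∣ ∏ i ∈ Finset.range m, ((p ^ f) ^ (2 * (i + 1)) - 1) := by
  rw [(Nat.prime_iff.1 hp).dvd_finsetProd_iff]
  rintro ⟨i, -, hi⟩
  exact not_dvd_pow_sub_one hp f (2 * (i + 1)) hf (by omega) hi

/-- piece OO -/
theorem main : POmegaOddStmt.{u} := by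
  intro G _ _ p hp hG
  obtain ⟨F, _, _, _, m, hm, hodd, ⟨e⟩⟩ := hG
  obtain ⟨n, -, hn⟩ := FiniteField.card F p
  have hf : 1 ≤ (n : ℕ) := n.pos
  have hcard : Nat.card G = Nat.card (Cfsg.POmega F (Cfsg.quadFormOdd m F)) :=
    Nat.card_congr e.toEquiv
  have hres := Cfsg.Agent.S0292.result (F := F) hn (hn ▸ hodd) m hm
  rw [← hcard] at hres
  have hq2 : 2 ≤ p ^ (n : ℕ) := by
    calc 2 ≤ p := hp.two_le
      _ = p ^ 1 := (pow_one p).symm
      _ ≤ p ^ (n : ℕ) := Nat.pow_le_pow_right hp.pos hf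
  have hp2 : ¬ p ∣ 2 := by
    intro h
    have hp2 : p = 2 := (Nat.prime_dvd_prime_iff_eq hp Nat.prime_two).1 h
    rw [hn, hp2] at hodd
    exact (Nat.not_even_iff_odd.2 hodd) ((Nat.even_pow' (by omega)).2 even_two)
  refine (strong_of_formula p n hp 2 (m ^ 2) (m * (m + 1))
    (∏ i ∈ Finset.range m, ((p ^ (n : ℕ)) ^ (2 * (i + 1)) - 1)) hres hp2
    (not_dvd_prod hp n hf m) (prod_lt _ hq2 m (by omega)) ?_ ?_).2
  · nlinarith
  · nlinarith

end Cfsg.Agent.Lib.Helper67.LieOrdOO
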