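import Mathlib
import Cfsg.Agent.Lib.Helper42.LieOrdStmt
import Cfsg.Agent.Lib.Helper67.LieOrdOO
import Cfsg.Agent.S0293

set_option autoImplicit false

/-! Piece OP of S2363 (helper42's split): the order bounds for `PΩ⁺_{2m}(q)`, `m ≥ 4`. -/

namespace Cfsg.Agent.Lib.Helper67.LieOrdOP

open Cfsg.Agent.Lib.Helper42.LieOrdStmt Cfsg.Agent.Lib.Helper67.LieOrdOO

universe u

/-- piece OP -/
theorem main : POmegaPlusStmt.{u} := by
  intro G _ _ p hp hG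
  obtain ⟨F, _, _, _, m, hm, ⟨e⟩⟩ := hG
  obtain ⟨n, -, hn⟩ := FiniteField.card F p
  have hf : 1 ≤ (n : ℕ) := n.pos
  have hcard : Nat.card G = Nat.card (Cfsg.POmega F (Cfsg.quadFormPlus m F)) :=
    Nat.card_congr e.toEquiv
  have hres := Cfsg.Agent.S0293.result (F := F) hn m hm
  rw [← hcard, mul_assoc] at hres
  obtain ⟨k, rfl⟩ : ∃ k, m = k + 1 := ⟨m - 1, by omega⟩
  simp only [Nat.add_sub_cancel] at hres
  have hq2 : 2 ≤ p ^ (n : ℕ) := by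
    calc 2 ≤ p := hp.two_le
      _ = p ^ 1 := (pow_one p).symm
      _ ≤ p ^ (n : ℕ) := Nat.pow_le_pow_right hp.pos hf
  have h1 : ¬ p ∣ (p ^ (n : ℕ)) ^ (k + 1) - 1 := not_dvd_pow_sub_one hp n (k + 1) hf (by omega)
  have hpd : ¬ p ∣ Nat.gcd 4 ((p ^ (n : ℕ)) ^ (k + 1) - 1) :=
    fun h => h1 (h.trans (Nat.gcd_dvd_right _ _))
  have hpP : ¬ p ∣ ((p ^ (n : ℕ)) ^ (k + 1) - 1) *
      ∏ i ∈ Finset.range k, ((p ^ (n : ℕ)) ^ (2 * (i + 1)) - 1) := by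
    intro h
    rcases (Nat.Prime.dvd_mul hp).1 h with h | h
    · exact h1 h
    · exact not_dvd_prod hp n hf k h
  have hPD : ((p ^ (n : ℕ)) ^ (k + 1) - 1) *
      ∏ i ∈ Finset.range k, ((p ^ (n : ℕ)) ^ (2 * (i + 1)) - 1)
      < (p ^ (n : ℕ)) ^ ((k + 1) * (k + 1)) := by
    have e : (p ^ (n : ℕ)) ^ ((k + 1) * (k + 1))
        = (p ^ (n : ℕ)) ^ (k + 1) * (p ^ (n : ℕ)) ^ (k * (k + 1)) := by
      rw [← pow_add]; congr 1; ring
    have h2 : 1 ≤ (p ^ (n : ℕ)) ^ (k + 1) := Nat.one_le_pow _ _ (by omega)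
    rw [e]
    exact Nat.mul_lt_mul_of_le_of_lt (Nat.sub_le _ _) (prod_lt _ hq2 k (by omega)) (by omega)
  refine (strong_of_formula p n hp (Nat.gcd 4 ((p ^ (n : ℕ)) ^ (k + 1) - 1)) ((k + 1) * k)
    ((k + 1) * (k + 1)) _ hres hpd hpP hPD ?_ ?_).2
  · nlinarith
  · nlinarith

end Cfsg.Agent.Lib.Helper67.LieOrdOP
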