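import Mathlib
import Cfsg.Agent.Lib.Helper35.M24BlkStmt

set_option autoImplicit false

/-! Piece CONJ15 of S5006 (helper35's split): elements of order 15 of `M24` are conjugate to
`r` or to `r ^ 11`. -/

namespace Cfsg.Agent.Lib.Helper67.M24BlkCONJ15

open Cfsg Cfsg.Agent.Lib.Helper35.M24BlkStmt

section Gen

variable {G : Type*} [Group G]

theorem conj_iter (n x : G) (h : n * x * n⁻¹ = x ^ 2) (j : ℕ) :
    n ^ j * x * (n ^ j)⁻¹ = x ^ 2 ^ j := by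
  induction j with
  | zero => simp
  | succ j ih =>
    have e : n ^ (j + 1) * x * (n ^ (j + 1))⁻¹ = n * (n ^ j * x * (n ^ j)⁻¹) * n⁻¹ := by
      rw [pow_succ']; group
    rw [e, ih, ← conj_pow, h, ← pow_mul, ← pow_succ']

/-- undo the twist: `(n^j)⁻¹` conjugates `x ^ 2 ^ j` back to `x`. -/
theorem conj_iter_inv (n x : G) (h : n * x * n⁻¹ = x ^ 2) (j : ℕ) :
    (n ^ j)⁻¹ * x ^ 2 ^ j * (n ^ j)⁻¹⁻¹ = x := by
  rw [← conj_iter n x h j]; group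

/-- The abstract form of the piece. -/
theorem core (M : Subgroup G) (r n : G) (hr : r ∈ M) (hn : n ∈ M) (hr15 : orderOf r = 15)
    (hnr : n * r ^ 3 * n⁻¹ = (r ^ 3) ^ 2)
    (hsyl : ∀ g ∈ M, orderOf g = 5 → ∃ h ∈ M, ∃ k : ℕ, h * g * h⁻¹ = (r ^ 3) ^ k)
    (hb : ∀ b ∈ M, b * r ^ 3 = r ^ 3 * b → orderOf b = 3 →
      ∃ c ∈ M, c * r ^ 3 = r ^ 3 * c ∧ (c * b * c⁻¹ = r ^ 5 ∨ c * b * c⁻¹ = (r ^ 5)⁻¹))
    (g : G) (hg : g ∈ M) (hg15 : orderOf g = 15) :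
    ∃ h ∈ M, h * g * h⁻¹ = r ∨ h * g * h⁻¹ = r ^ 11 := by
  have hr3 : orderOf (r ^ 3) = 5 := by
    rw [orderOf_pow' _ (by norm_num), hr15]; norm_num
  have hg3 : orderOf (g ^ 3) = 5 := by
    rw [orderOf_pow' _ (by norm_num), hg15]; norm_num
  have hg5 : orderOf (g ^ 5) = 3 := by
    rw [orderOf_pow' _ (by norm_num), hg15]; norm_num
  obtain ⟨h₁, hh₁, k, hk⟩ := hsyl (g ^ 3) (M.pow_mem hg 3) hg3
  -- reduce `k` modulo 5 and find `j` with `2 ^ j ≡ k`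
  have hk5 : (r ^ 3) ^ k = (r ^ 3) ^ (k % 5) := by
    rw [← hr3]; exact (pow_mod_orderOf _ _).symm
  have hne : h₁ * g ^ 3 * h₁⁻¹ ≠ 1 := by
    intro h
    have h' : g ^ 3 = 1 := by
      have := congrArg (fun y => h₁⁻¹ * y * h₁) h
      simpa [mul_assoc] using this
    rw [h', orderOf_one] at hg3
    omega
  obtain ⟨j, hj⟩ : ∃ j : ℕ, (r ^ 3) ^ k = (r ^ 3) ^ 2 ^ j := by
    have hlt : k % 5 < 5 := Nat.mod_lt _ (by norm_num)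
    have h5 : (r ^ 3) ^ 5 = 1 := by rw [← hr3]; exact pow_orderOf_eq_one _
    interval_cases hkm : k % 5
    · exfalso; apply hne; rw [hk, hk5]; simp
    · exact ⟨0, by rw [hk5]; simp⟩
    · exact ⟨1, by rw [hk5]; simp⟩
    · refine ⟨3, ?_⟩
      rw [hk5]
      have e : (r ^ 3) ^ 2 ^ 3 = (r ^ 3) ^ 5 * (r ^ 3) ^ 3 := by rw [← pow_add]; norm_num
      rw [e, h5, one_mul]
    · exact ⟨2, by rw [hk5]; norm_num⟩
  -- first conjugation: `g₁ ^ 3 = r ^ 3`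
  set h₂ := (n ^ j)⁻¹ * h₁ with hh₂def
  have hh₂ : h₂ ∈ M := M.mul_mem (M.inv_mem (M.pow_mem hn j)) hh₁
  set g₁ := h₂ * g * h₂⁻¹ with hg₁def
  have hg₁M : g₁ ∈ M := M.mul_mem (M.mul_mem hh₂ hg) (M.inv_mem hh₂)
  have hg₁3 : g₁ ^ 3 = r ^ 3 := by
    have e : g₁ ^ 3 = (n ^ j)⁻¹ * (h₁ * g ^ 3 * h₁⁻¹) * (n ^ j)⁻¹⁻¹ := by
      rw [hg₁def, conj_pow, hh₂def]; group
    rw [e, hk, hj, conj_iter_inv n (r ^ 3) hnr j]
  have hg₁15 : orderOf g₁ = 15 := by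
    rw [← hg15]; exact (MulAut.conj h₂).orderOf_eq g
  -- second conjugation: `g₂ ^ 5 = r ^ (± 5)`
  have hbM : g₁ ^ 5 ∈ M := M.pow_mem hg₁M 5
  have hbc : g₁ ^ 5 * r ^ 3 = r ^ 3 * g₁ ^ 5 := by
    rw [← hg₁3, ← pow_add, ← pow_add]
  have hb3 : orderOf (g₁ ^ 5) = 3 := by
    rw [orderOf_pow' _ (by norm_num), hg₁15]; norm_num
  obtain ⟨c, hcM, hc, hcb⟩ := hb (g₁ ^ 5) hbM hbc hb3
  set g₂ := c * g₁ * c⁻¹ with hg₂def
  have hg₂3 : g₂ ^ 3 = r ^ 3 := by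
    rw [hg₂def, conj_pow, hg₁3]; exact mul_inv_eq_of_eq_mul hc
  have hg₂5 : g₂ ^ 5 = c * g₁ ^ 5 * c⁻¹ := by
    rw [hg₂def, conj_pow]
  have hg₂15 : g₂ ^ 15 = 1 := by
    have h : orderOf g₂ = 15 := by
      rw [← hg₁15]; exact (MulAut.conj c).orderOf_eq g₁
    rw [← h]; exact pow_orderOf_eq_one _
  have hr15' : r ^ 15 = 1 := by rw [← hr15]; exact pow_orderOf_eq_one _
  have hg₂ : g₂ = (g₂ ^ 3) ^ 2 * (g₂ ^ 5) ^ 2 := by
    rw [← pow_mul, ← pow_mul, ← pow_add]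
    have e : g₂ ^ (3 * 2 + 5 * 2) = g₂ ^ 15 * g₂ := by rw [← pow_succ]
    rw [e, hg₂15, one_mul]
  have hconj : (c * h₂) * g * (c * h₂)⁻¹ = g₂ := by
    rw [hg₂def, hg₁def]; group
  refine ⟨c * h₂, M.mul_mem hcM hh₂, ?_⟩
  rw [hconj, hg₂, hg₂3, hg₂5]
  rcases hcb with h | h
  · left
    rw [h, ← pow_mul, ← pow_mul, ← pow_add]
    have e : r ^ (3 * 2 + 5 * 2) = r ^ 15 * r := by rw [← pow_succ]
    rw [e, hr15', one_mul]
  · right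
    rw [h, inv_pow]
    apply mul_inv_eq_of_eq_mul
    rw [← pow_mul, ← pow_mul, ← pow_add]
    have e : r ^ (11 + 5 * 2) = r ^ 15 * r ^ (3 * 2) := by rw [← pow_add]
    rw [e, hr15', one_mul]

end Gen

/-- piece CONJ15 -/
theorem main : Syl → Conj15 := by
  intro hSyl r n hr hn hr15 hnr hb g hg hg15
  have hr3 : orderOf (r ^ 3) = 5 := by
    rw [orderOf_pow' _ (by norm_num), hr15]; norm_num
  refine core M24 r n hr hn hr15 hnr ?_ hb g hg hg15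
  intro x hx hx5
  exact hSyl 5 (by norm_num) (by norm_num) (r ^ 3) x (M24.pow_mem hr 3) hx hr3 hx5

end Cfsg.Agent.Lib.Helper67.M24BlkCONJ15
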