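import Mathlib
import Cfsg.Agent.Lib.Helper35.M24BlkStmt
import Cfsg.Agent.Lib.Helper67.M24BlkCONJ15

set_option autoImplicit false

/-! Piece CONJ21 of S5006 (helper35's split): elements of order 21 of `M24` are conjugate to
`r` or to `r⁻¹`. -/

namespace Cfsg.Agent.Lib.Helper67.M24BlkCONJ21

open Cfsg Cfsg.Agent.Lib.Helper35.M24BlkStmt Cfsg.Agent.Lib.Helper67.M24BlkCONJ15

section Gen

variable {G : Type*} [Group G]

/-- an element of order 21 with the same cube as `r` is conjugate to `r`. -/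
theorem caseA (M : Subgroup G) (r c : G) (hc : c ∈ M) (hr21 : orderOf r = 21)
    (hcr : c * r * c⁻¹ = r ^ 2)
    (hb : ∀ b ∈ M, b * r ^ 3 = r ^ 3 * b → orderOf b = 3 → b = r ^ 7 ∨ b = (r ^ 7)⁻¹)
    (g : G) (hg : g ∈ M) (hg21 : orderOf g = 21) (hg3 : g ^ 3 = r ^ 3) :
    ∃ h ∈ M, h * g * h⁻¹ = r := by
  have hbM : g ^ 7 ∈ M := M.pow_mem hg 7
  have hbc : g ^ 7 * r ^ 3 = r ^ 3 * g ^ 7 := by
    rw [← hg3, ← pow_add, ← pow_add]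
  have hb3 : orderOf (g ^ 7) = 3 := by
    rw [orderOf_pow' _ (by norm_num), hg21]; norm_num
  have hg21' : g ^ 21 = 1 := by rw [← hg21]; exact pow_orderOf_eq_one _
  have hr21' : r ^ 21 = 1 := by rw [← hr21]; exact pow_orderOf_eq_one _
  have hgd : g = (g ^ 3) ^ 5 * g ^ 7 := by
    rw [← pow_mul, ← pow_add]
    have e : g ^ (3 * 5 + 7) = g ^ 21 * g := by rw [← pow_succ]
    rw [e, hg21', one_mul]
  rcases hb (g ^ 7) hbM hbc hb3 with h | h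
  · refine ⟨1, M.one_mem, ?_⟩
    rw [one_mul, inv_one, mul_one, hgd, hg3, h, ← pow_mul, ← pow_add]
    have e : r ^ (3 * 5 + 7) = r ^ 21 * r := by rw [← pow_succ]
    rw [e, hr21', one_mul]
  · refine ⟨(c ^ 3)⁻¹, M.inv_mem (M.pow_mem hc 3), ?_⟩
    have hg8 : g = r ^ 2 ^ 3 := by
      rw [hgd, hg3, h]
      apply mul_inv_eq_of_eq_mul
      rw [← pow_mul, ← pow_add]
      norm_num
    rw [hg8]
    exact conj_iter_inv c r hcr 3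

theorem caseB (M : Subgroup G) (r c : G) (hc : c ∈ M) (hr21 : orderOf r = 21)
    (hcr : c * r * c⁻¹ = r ^ 2)
    (hb : ∀ b ∈ M, b * r ^ 3 = r ^ 3 * b → orderOf b = 3 → b = r ^ 7 ∨ b = (r ^ 7)⁻¹)
    (g : G) (hg : g ∈ M) (hg21 : orderOf g = 21) (h₁ : G) (hh₁ : h₁ ∈ M) (j : ℕ)
    (hj : h₁ * g ^ 3 * h₁⁻¹ = (r ^ 3) ^ 2 ^ j) :
    ∃ h ∈ M, h * g * h⁻¹ = r := by
  have hcr3 : c * r ^ 3 * c⁻¹ = (r ^ 3) ^ 2 := by
    rw [← conj_pow, hcr, ← pow_mul, ← pow_mul]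
  set h₂ := (c ^ j)⁻¹ * h₁ with hh₂def
  have hh₂ : h₂ ∈ M := M.mul_mem (M.inv_mem (M.pow_mem hc j)) hh₁
  set g₁ := h₂ * g * h₂⁻¹ with hg₁def
  have hg₁M : g₁ ∈ M := M.mul_mem (M.mul_mem hh₂ hg) (M.inv_mem hh₂)
  have hg₁3 : g₁ ^ 3 = r ^ 3 := by
    have e : g₁ ^ 3 = (c ^ j)⁻¹ * (h₁ * g ^ 3 * h₁⁻¹) * (c ^ j)⁻¹⁻¹ := by
      rw [hg₁def, conj_pow, hh₂def]; group
    rw [e, hj, conj_iter_inv c (r ^ 3) hcr3 j]
  have hg₁21 : orderOf g₁ = 21 := by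
    rw [← hg21]; exact (MulAut.conj h₂).orderOf_eq g
  obtain ⟨h, hhM, hh⟩ := caseA M r c hc hr21 hcr hb g₁ hg₁M hg₁21 hg₁3
  refine ⟨h * h₂, M.mul_mem hhM hh₂, ?_⟩
  rw [← hh, hg₁def]; group

/-- The abstract form of the piece. -/
theorem core (M : Subgroup G) (r c : G) (hc : c ∈ M) (hr21 : orderOf r = 21)
    (hcr : c * r * c⁻¹ = r ^ 2)
    (hsyl : ∀ g ∈ M, orderOf g = 7 → ∃ h ∈ M, ∃ k : ℕ, h * g * h⁻¹ = (r ^ 3) ^ k)
    (hb : ∀ b ∈ M, b * r ^ 3 = r ^ 3 * b → orderOf b = 3 → b = r ^ 7 ∨ b = (r ^ 7)⁻¹)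
    (g : G) (hg : g ∈ M) (hg21 : orderOf g = 21) :
    ∃ h ∈ M, h * g * h⁻¹ = r ∨ h * g * h⁻¹ = r⁻¹ := by
  have hr3 : orderOf (r ^ 3) = 7 := by
    rw [orderOf_pow' _ (by norm_num), hr21]; norm_num
  have hg3 : orderOf (g ^ 3) = 7 := by
    rw [orderOf_pow' _ (by norm_num), hg21]; norm_num
  obtain ⟨h₁, hh₁, k, hk⟩ := hsyl (g ^ 3) (M.pow_mem hg 3) hg3
  have hk7 : (r ^ 3) ^ k = (r ^ 3) ^ (k % 7) := by
    rw [← hr3]; exact (pow_mod_orderOf _ _).symm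
  have hne : h₁ * g ^ 3 * h₁⁻¹ ≠ 1 := by
    intro h
    have h' : g ^ 3 = 1 := by
      have := congrArg (fun y => h₁⁻¹ * y * h₁) h
      simpa [mul_assoc] using this
    rw [h', orderOf_one] at hg3
    omega
  have h7 : (r ^ 3) ^ 7 = 1 := by rw [← hr3]; exact pow_orderOf_eq_one _
  -- positive case
  have pos : ∀ j : ℕ, (r ^ 3) ^ k = (r ^ 3) ^ 2 ^ j →
      ∃ h ∈ M, h * g * h⁻¹ = r ∨ h * g * h⁻¹ = r⁻¹ := by
    intro j hj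
    obtain ⟨h, hhM, hh⟩ := caseB M r c hc hr21 hcr hb g hg hg21 h₁ hh₁ j (hk.trans hj)
    exact ⟨h, hhM, Or.inl hh⟩
  -- negative case
  have neg : ∀ j : ℕ, (r ^ 3) ^ k * (r ^ 3) ^ 2 ^ j = 1 →
      ∃ h ∈ M, h * g * h⁻¹ = r ∨ h * g * h⁻¹ = r⁻¹ := by
    intro j hj
    have hg21i : orderOf g⁻¹ = 21 := by rw [orderOf_inv, hg21]
    have e : h₁ * g⁻¹ ^ 3 * h₁⁻¹ = (r ^ 3) ^ 2 ^ j := by
      have e1 : h₁ * g⁻¹ ^ 3 * h₁⁻¹ = (h₁ * g ^ 3 * h₁⁻¹)⁻¹ := by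
        rw [inv_pow]; group
      rw [e1, hk]
      exact inv_eq_of_mul_eq_one_right hj
    obtain ⟨h, hhM, hh⟩ := caseB M r c hc hr21 hcr hb g⁻¹ (M.inv_mem hg) hg21i h₁ hh₁ j e
    refine ⟨h, hhM, Or.inr ?_⟩
    have e2 : h * g * h⁻¹ = (h * g⁻¹ * h⁻¹)⁻¹ := by group
    rw [e2, hh]
  have hlt : k % 7 < 7 := Nat.mod_lt _ (by norm_num)
  interval_cases hkm : k % 7
  · exfalso; apply hne; rw [hk, hk7]; simp
  · exact pos 0 (by rw [hk7]; simp)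
  · exact pos 1 (by rw [hk7]; simp)
  · refine neg 2 ?_
    rw [hk7, ← pow_add]; exact h7
  · exact pos 2 (by rw [hk7]; norm_num)
  · refine neg 1 ?_
    rw [hk7, ← pow_add]; exact h7
  · refine neg 0 ?_
    rw [hk7, ← pow_add]; exact h7

end Gen

/-- piece CONJ21 -/
theorem main : Syl → Conj21 := by
  intro hSyl r c hr hc hr21 hcr hb g hg hg21
  have hr3 : orderOf (r ^ 3) = 7 := by
    rw [orderOf_pow' _ (by norm_num), hr21]; norm_num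
  refine core M24 r c hc hr21 hcr ?_ hb g hg hg21
  intro x hx hx7
  exact hSyl 7 (by norm_num) (by norm_num) (r ^ 3) x (M24.pow_mem hr 3) hx hr3 hx7

end Cfsg.Agent.Lib.Helper67.M24BlkCONJ21
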