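import Mathlib
import Cfsg.Agent.Lib.Helper35.M24BlkStmt

set_option autoImplicit false

/-! Piece HINV of S5006 (helper35's split): the hypothesis of the radical-subgroup theorem for
the group `↥M24`, from the local property `Good` of the involutions. -/

namespace Cfsg.Agent.Lib.Helper67.M24BlkHINV

open Cfsg Cfsg.Agent.Lib.Helper35.M24BlkStmt

section Gen

variable {G : Type*} [Group G]

/-- The local property, for a subgroup `M` of an arbitrary group. -/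
def GoodG (M : Subgroup G) (t : G) : Prop :=
  ∃ Q : Subgroup G, Q ≤ M ∧ IsPGroup 2 Q ∧
    (∀ c ∈ M, c * t = t * c → ∀ q ∈ Q, c * q * c⁻¹ ∈ Q) ∧
    (∀ x ∈ M, (∀ q ∈ Q, x * q = q * x) → x ∈ Q)

/-- `GoodG` is invariant under conjugation by elements of `M`. -/
theorem conj_good (M : Subgroup G) (h t : G) (hh : h ∈ M) (hg : GoodG M (h * t * h⁻¹)) :
    GoodG M t := by
  obtain ⟨Q, hQM, hQ2, hQn, hQc⟩ := hg
  refine ⟨Q.map (MulAut.conj h⁻¹).toMonoidHom, ?_, hQ2.map _, ?_, ?_⟩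
  · rintro _ ⟨q, hq, rfl⟩
    exact M.mul_mem (M.mul_mem (M.inv_mem hh) (hQM hq)) (M.inv_mem (M.inv_mem hh))
  · rintro c hc hct _ ⟨q, hq, rfl⟩
    have hc' : h * c * h⁻¹ ∈ M := M.mul_mem (M.mul_mem hh hc) (M.inv_mem hh)
    have hcomm : (h * c * h⁻¹) * (h * t * h⁻¹) = (h * t * h⁻¹) * (h * c * h⁻¹) := by
      have e1 : (h * c * h⁻¹) * (h * t * h⁻¹) = h * (c * t) * h⁻¹ := by group
      have e2 : (h * t * h⁻¹) * (h * c * h⁻¹) = h * (t * c) * h⁻¹ := by group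
      rw [e1, e2, hct]
    refine ⟨(h * c * h⁻¹) * q * (h * c * h⁻¹)⁻¹, hQn _ hc' hcomm q hq, ?_⟩
    show h⁻¹ * ((h * c * h⁻¹) * q * (h * c * h⁻¹)⁻¹) * h⁻¹⁻¹ = c * (h⁻¹ * q * h⁻¹⁻¹) * c⁻¹
    group
  · intro x hx hxc
    have hx' : h * x * h⁻¹ ∈ M := M.mul_mem (M.mul_mem hh hx) (M.inv_mem hh)
    have hmem : h * x * h⁻¹ ∈ Q := by
      refine hQc _ hx' ?_
      intro q hq
      have hq' : h⁻¹ * q * h⁻¹⁻¹ ∈ Q.map (MulAut.conj h⁻¹).toMonoidHom := ⟨q, hq, rfl⟩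
      have hc := hxc _ hq'
      have e1 : h * x * h⁻¹ * q = h * (x * (h⁻¹ * q * h⁻¹⁻¹)) * h⁻¹ := by group
      have e2 : q * (h * x * h⁻¹) = h * ((h⁻¹ * q * h⁻¹⁻¹) * x) * h⁻¹ := by group
      rw [e1, e2, hc]
    refine ⟨h * x * h⁻¹, hmem, ?_⟩
    show h⁻¹ * (h * x * h⁻¹) * h⁻¹⁻¹ = x
    group

/-- From `GoodG` to the statement inside the group `↥M`. -/
theorem to_sub (M : Subgroup G) (t : ↥M) (hg : GoodG M (t : G)) :
    ∃ Q : Subgroup ↥M, IsPGroup 2 Q ∧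
      Subgroup.centralizer ({t} : Set ↥M) ≤ Subgroup.normalizer (Q : Set ↥M) ∧
      Subgroup.centralizer (Q : Set ↥M) ≤ Q := by
  obtain ⟨Q, hQM, hQ2, hQn, hQc⟩ := hg
  refine ⟨Q.subgroupOf M, hQ2.comap_of_injective M.subtype M.subtype_injective, ?_, ?_⟩
  · intro c hc
    have hct : (c : G) * (t : G) = (t : G) * (c : G) := by
      have h := Subgroup.mem_centralizer_iff.1 hc t rfl
      exact (congrArg Subtype.val h).symm
    have hcit : ((c⁻¹ : ↥M) : G) * (t : G) = (t : G) * ((c⁻¹ : ↥M) : G) := by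
      have e : ((c⁻¹ : ↥M) : G) = (c : G)⁻¹ := rfl
      rw [e, inv_mul_eq_iff_eq_mul, ← mul_assoc, hct, mul_inv_cancel_right]
    rw [Subgroup.mem_normalizer_iff]
    intro q
    constructor
    · intro hq
      exact hQn (c : G) c.2 hct (q : G) hq
    · intro hq
      have h := hQn ((c⁻¹ : ↥M) : G) (c⁻¹).2 hcit _ hq
      have e : ((c⁻¹ : ↥M) : G) * ((c * q * c⁻¹ : ↥M) : G) * ((c⁻¹ : ↥M) : G)⁻¹ = (q : G) := by
        show (c : G)⁻¹ * ((c : G) * (q : G) * (c : G)⁻¹) * (c : G)⁻¹⁻¹ = (q : G)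
        group
      have h' : ((c⁻¹ : ↥M) : G) * ((c * q * c⁻¹ : ↥M) : G) * ((c⁻¹ : ↥M) : G)⁻¹ ∈ Q := h
      rw [e] at h'
      exact h'
  · intro x hx
    refine hQc (x : G) x.2 ?_
    intro q hq
    have hqM : q ∈ M := hQM hq
    have h := Subgroup.mem_centralizer_iff.1 hx ⟨q, hqM⟩ hq
    exact (congrArg Subtype.val h).symm

/-- The abstract form of the piece. -/
theorem core {α : Type*} (M : Subgroup (Equiv.Perm α)) (tB : Equiv.Perm α)
    (h1 : ∀ u ∈ M, u * u = 1 → (∀ p : α, u p ≠ p) → ∃ h ∈ M, h * u * h⁻¹ = tB)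
    (h2 : ∀ t : Equiv.Perm α, t ∈ M → t * t = 1 → t ≠ 1 → (∃ p : α, t p = p) → GoodG M t)
    (h3 : GoodG M tB) (t : ↥M) (ht : orderOf t = 2) :
    ∃ Q : Subgroup ↥M, IsPGroup 2 Q ∧
      Subgroup.centralizer ({t} : Set ↥M) ≤ Subgroup.normalizer (Q : Set ↥M) ∧
      Subgroup.centralizer (Q : Set ↥M) ≤ Q := by
  apply to_sub
  have ht2 : t * t = 1 := by rw [← pow_two, ← ht]; exact pow_orderOf_eq_one t
  have ht2' : (t : Equiv.Perm α) * (t : Equiv.Perm α) = 1 := congrArg Subtype.val ht2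
  have ht1 : (t : Equiv.Perm α) ≠ 1 := by
    intro h
    have h' : t = 1 := Subtype.ext h
    rw [h', orderOf_one] at ht
    omega
  by_cases hfix : ∃ p : α, (t : Equiv.Perm α) p = p
  · exact h2 _ t.2 ht2' ht1 hfix
  · simp only [not_exists] at hfix
    obtain ⟨h, hh, hconj⟩ := h1 _ t.2 ht2' hfix
    apply conj_good M h _ hh
    rw [hconj]
    exact h3

end Gen

/-- piece HINV -/
theorem main : HInv := by
  intro tB _ h1 h2 h3 t ht
  exact core M24 tB h1 h2 h3 t ht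

end Cfsg.Agent.Lib.Helper67.M24BlkHINV
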