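import Mathlib
import Cfsg.Agent.Lib.Helper35.M24BlkStmt

set_option autoImplicit false

/-! Piece INVC of S5006 (helper35's split): elements of order 1, 3, 5, 7 of `M24` commute with
an involution. -/

namespace Cfsg.Agent.Lib.Helper67.M24BlkINVC

open Cfsg Cfsg.Agent.Lib.Helper35.M24BlkStmt

section Gen

variable {G : Type*} [Group G]

/-- Conjugation into a subgroup of index prime to `p` (same proof as
`Helper35.M23Gen.exists_conj_mem`, restated here to avoid its heavy imports). -/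
theorem conj_into (M U : Subgroup G) [Finite M] (hU : U ≤ M)
    (p : ℕ) [Fact p.Prime] (m : ℕ) (hcard : Nat.card M = Nat.card U * m) (hm : ¬ p ∣ m)
    (x : G) (hx : x ∈ M) (hxp : x ^ p = 1) : ∃ u ∈ M, u⁻¹ * x * u ∈ U := by
  have hfin : Finite U :=
    Finite.of_injective (Subgroup.inclusion hU) (Subgroup.inclusion_injective hU)
  have hidx : (U.subgroupOf M).index = m := by
    have h1 : Nat.card (U.subgroupOf M) * (U.subgroupOf M).index = Nat.card M :=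
      Subgroup.card_mul_index _
    have h2 : Nat.card (U.subgroupOf M) = Nat.card U :=
      Nat.card_congr (Subgroup.subgroupOfEquivOfLe hU).toEquiv
    rw [h2, hcard] at h1
    exact Nat.eq_of_mul_eq_mul_left Nat.card_pos h1
  have hZ : IsPGroup p (Subgroup.zpowers (⟨x, hx⟩ : M)) := by
    intro g
    refine ⟨1, ?_⟩
    obtain ⟨i, hi⟩ := Subgroup.mem_zpowers_iff.mp g.2
    apply Subtype.ext
    apply Subtype.ext
    show ((g : M) : G) ^ p ^ 1 = 1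
    rw [← hi, pow_one]
    show (x ^ i) ^ p = 1
    rw [← zpow_natCast, ← zpow_mul, mul_comm, zpow_mul, zpow_natCast, hxp, one_zpow]
  have hmod := hZ.card_modEq_card_fixedPoints (M ⧸ U.subgroupOf M)
  have hne : Nat.card (MulAction.fixedPoints (Subgroup.zpowers (⟨x, hx⟩ : M))
      (M ⧸ U.subgroupOf M)) ≠ 0 := by
    intro h0
    rw [h0, ← Subgroup.index_eq_card, hidx] at hmod
    exact hm (Nat.modEq_zero_iff_dvd.mp hmod)
  obtain ⟨⟨q, hq⟩⟩ := (Nat.card_pos_iff.mp (Nat.pos_of_ne_zero hne)).1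
  obtain ⟨u, rfl⟩ := QuotientGroup.mk_surjective q
  have h1 := hq ⟨⟨x, hx⟩, Subgroup.mem_zpowers _⟩
  have h2 : ((⟨x, hx⟩ * u : M) : M ⧸ U.subgroupOf M) = (u : M ⧸ U.subgroupOf M) := h1
  rw [QuotientGroup.eq] at h2
  have h3 : ((⟨x, hx⟩ * u)⁻¹ * u : M) ∈ U.subgroupOf M := h2
  have h4 := Subgroup.inv_mem _ h3
  rw [Subgroup.mem_subgroupOf] at h4
  refine ⟨u.1, u.2, ?_⟩
  have e : (((⟨x, hx⟩ * u)⁻¹ * u : M)⁻¹ : M).1 = u.1⁻¹ * x * u.1 := by
    show ((x * u.1)⁻¹ * u.1)⁻¹ = u.1⁻¹ * x * u.1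
    group
  rw [← e]
  exact h4

/-- transport an involution commuting with a conjugate of `g` back to `g`. -/
theorem transport (M : Subgroup G) (h u g : G) (hh : h ∈ M) (hu : u ∈ M) (hu2 : orderOf u = 2)
    (hc : u * (h * g * h⁻¹) = (h * g * h⁻¹) * u) :
    ∃ u' ∈ M, orderOf u' = 2 ∧ u' * g = g * u' := by
  refine ⟨h⁻¹ * u * h⁻¹⁻¹, M.mul_mem (M.mul_mem (M.inv_mem hh) hu) (M.inv_mem (M.inv_mem hh)),
    ?_, ?_⟩
  · rw [← hu2]; exact (MulAut.conj h⁻¹).orderOf_eq u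
  · have := congrArg (fun y => h⁻¹ * y * h) hc
    simp only [mul_assoc, inv_mul_cancel_left, inv_inv] at this ⊢
    simpa [mul_assoc] using this

/-- The abstract form of the piece. -/
theorem core (M : Subgroup G) [Finite M] (hcard : Nat.card M = 244823040)
    (hsyl : ∀ q : ℕ, q.Prime → ¬ q ^ 2 ∣ 244823040 → ∀ r x : G, r ∈ M → x ∈ M →
      orderOf r = q → orderOf x = q → ∃ h ∈ M, ∃ k : ℕ, h * x * h⁻¹ = r ^ k)
    (P : Subgroup G) (r5 r7 u5 u7 : G) (hP : P ≤ M) (hP27 : Nat.card P = 27)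
    (hPu : ∀ x ∈ P, ∃ u ∈ M, orderOf u = 2 ∧ u * x = x * u)
    (hr5 : r5 ∈ M) (hr7 : r7 ∈ M) (hu5 : u5 ∈ M) (hu7 : u7 ∈ M)
    (h5 : orderOf r5 = 5) (h7 : orderOf r7 = 7) (hu52 : orderOf u5 = 2) (hu72 : orderOf u7 = 2)
    (hc5 : u5 * r5 = r5 * u5) (hc7 : u7 * r7 = r7 * u7)
    (g : G) (hg : g ∈ M)
    (ho : orderOf g = 1 ∨ orderOf g = 3 ∨ orderOf g = 5 ∨ orderOf g = 7) :
    ∃ u ∈ M, orderOf u = 2 ∧ u * g = g * u := by
  rcases ho with ho | ho | ho | ho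
  · rw [orderOf_eq_one_iff] at ho
    subst ho
    exact ⟨u5, hu5, hu52, by rw [mul_one, one_mul]⟩
  · have : Fact (Nat.Prime 3) := ⟨Nat.prime_three⟩
    have hg3 : g ^ 3 = 1 := by rw [← ho]; exact pow_orderOf_eq_one g
    obtain ⟨v, hv, hvP⟩ := conj_into M P hP 3 9067520 (by rw [hcard, hP27]) (by norm_num)
      g hg hg3
    obtain ⟨u, hu, hu2, huc⟩ := hPu _ hvP
    have huc' : u * (v⁻¹ * g * v⁻¹⁻¹) = (v⁻¹ * g * v⁻¹⁻¹) * u := by
      rw [inv_inv]; exact huc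
    exact transport M v⁻¹ u g (M.inv_mem hv) hu hu2 huc'
  · obtain ⟨h, hh, k, hk⟩ := hsyl 5 (by norm_num) (by norm_num) r5 g hr5 hg h5 ho
    refine transport M h u5 g hh hu5 hu52 ?_
    rw [hk]
    exact ((Commute.pow_right (show Commute u5 r5 from hc5) k)).eq
  · obtain ⟨h, hh, k, hk⟩ := hsyl 7 (by norm_num) (by norm_num) r7 g hr7 hg h7 ho
    refine transport M h u7 g hh hu7 hu72 ?_
    rw [hk]
    exact ((Commute.pow_right (show Commute u7 r7 from hc7) k)).eq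

end Gen

/-- piece INVC -/
theorem main : Syl → InvC := by
  intro hSyl P r5 r7 u5 u7 hP hP27 hPu hr5 hr7 hu5 hu7 h5 h7 hu52 hu72 hc5 hc7 g hg ho
  have : Finite ↥M24 := Nat.finite_of_card_ne_zero (by
    rw [Cfsg.Agent.Lib.Helper7.M24Main.card_M24]; norm_num)
  exact core M24 Cfsg.Agent.Lib.Helper7.M24Main.card_M24 hSyl P r5 r7 u5 u7 hP hP27 hPu
    hr5 hr7 hu5 hu7 h5 h7 hu52 hu72 hc5 hc7 g hg ho

end Cfsg.Agent.Lib.Helper67.M24BlkINVC
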