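import Mathlib
import Cfsg.Agent.Lib.Helper35.M24BlkStmt

set_option autoImplicit false

/-! Piece ORD of S5006 (helper35's split): the odd element orders of `M24`. -/

namespace Cfsg.Agent.Lib.Helper67.M24BlkORD

open Cfsg Cfsg.Agent.Lib.Helper35.M24BlkStmt

section Gen

variable {G : Type*} [Group G]

/-- if `q` divides the order of `g`, a conjugate of `g` commutes with `r` (of prime order `q`,
all elements of order `q` being conjugate to powers of `r`). -/
theorem step (M : Subgroup G) (q : ℕ) (hq : q.Prime) (r : G) (hrq : orderOf r = q)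
    (hsyl : ∀ x ∈ M, orderOf x = q → ∃ h ∈ M, ∃ k : ℕ, h * x * h⁻¹ = r ^ k)
    (g : G) (hg : g ∈ M) (hn0 : orderOf g ≠ 0) (hqn : q ∣ orderOf g) :
    ∃ y ∈ M, orderOf y = orderOf g ∧ y * r = r * y := by
  have hx : orderOf (g ^ (orderOf g / q)) = q := orderOf_pow_orderOf_div hn0 hqn
  obtain ⟨h, hh, k, hk⟩ := hsyl _ (M.pow_mem hg _) hx
  refine ⟨h * g * h⁻¹, M.mul_mem (M.mul_mem hh hg) (M.inv_mem hh),
    (MulAut.conj h).orderOf_eq g, ?_⟩
  have hc : Commute (h * g * h⁻¹) (r ^ k) := by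
    rw [← hk, ← conj_pow]
    exact Commute.pow_right (Commute.refl _) _
  have hqk : ¬ q ∣ k := by
    rintro ⟨m, rfl⟩
    have h1 : r ^ (q * m) = 1 := by rw [pow_mul, ← hrq, pow_orderOf_eq_one, one_pow]
    rw [h1] at hk
    have h' : g ^ (orderOf g / q) = 1 := by
      have := congrArg (fun y => h⁻¹ * y * h) hk
      simpa [mul_assoc] using this
    rw [h', orderOf_one] at hx
    exact hq.one_lt.ne hx
  have hcop : Nat.Coprime k q := ((Nat.Prime.coprime_iff_not_dvd hq).2 hqk).symm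
  obtain ⟨m, -, hm⟩ := Nat.exists_mul_mod_eq_one_of_coprime hcop hq.one_lt
  have hr : r = (r ^ k) ^ m := by
    rw [← pow_mul, ← pow_mod_orderOf, hrq, hm, pow_one]
  have hc' : Commute (h * g * h⁻¹) r := by
    rw [hr]; exact hc.pow_right m
  exact hc'.eq

theorem l21 : ∀ n ≤ 21, n ∣ 21 → 7 ∣ n → n = 7 ∨ n = 21 := by decide

theorem l15 : ∀ n ≤ 15, n ∣ 15 → 5 ∣ n → n = 5 ∨ n = 15 := by decide

/-- The abstract form of the piece. -/
theorem core (M : Subgroup G) [Finite M] (hcard : Nat.card M = 244823040)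
    (r5 r7 r11 r23 : G)
    (h5 : orderOf r5 = 5) (h7 : orderOf r7 = 7) (h11 : orderOf r11 = 11)
    (h23 : orderOf r23 = 23)
    (hsyl : ∀ q : ℕ, q.Prime → ¬ q ^ 2 ∣ 244823040 → ∀ r x : G, r ∈ M → x ∈ M →
      orderOf r = q → orderOf x = q → ∃ h ∈ M, ∃ k : ℕ, h * x * h⁻¹ = r ^ k)
    (hr5 : r5 ∈ M) (hr7 : r7 ∈ M) (hr11 : r11 ∈ M) (hr23 : r23 ∈ M)
    (c5 : ∀ x ∈ M, x * r5 = r5 * x → Odd (orderOf x) → orderOf x ∣ 15)
    (c7 : ∀ x ∈ M, x * r7 = r7 * x → Odd (orderOf x) → orderOf x ∣ 21)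
    (c11 : ∀ x ∈ M, x * r11 = r11 * x → Odd (orderOf x) → orderOf x ∣ 11)
    (c23 : ∀ x ∈ M, x * r23 = r23 * x → Odd (orderOf x) → orderOf x ∣ 23)
    (c3 : ∀ x ∈ M, x ^ 27 = 1 → x ^ 3 = 1)
    (g : G) (hg : g ∈ M) (hodd : Odd (orderOf g)) :
    orderOf g = 1 ∨ orderOf g = 3 ∨ orderOf g = 5 ∨ orderOf g = 7 ∨
      orderOf g = 11 ∨ orderOf g = 15 ∨ orderOf g = 21 ∨ orderOf g = 23 := by
  have hn0 : orderOf g ≠ 0 := by
    rintro h; rw [h] at hodd; exact (by decide : ¬ Odd 0) hodd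
  have hdvd : orderOf g ∣ 244823040 := by
    rw [← hcard, ← Subgroup.orderOf_mk g hg]
    exact orderOf_dvd_natCard _
  by_cases d23 : 23 ∣ orderOf g
  · obtain ⟨y, hy, hyo, hyc⟩ := step M 23 (by norm_num) r23 h23
      (fun x hx hxo => hsyl 23 (by norm_num) (by norm_num) r23 x hr23 hx h23 hxo) g hg hn0 d23
    have h := c23 y hy hyc (hyo ▸ hodd)
    rw [hyo] at h
    rcases (Nat.dvd_prime (by norm_num)).1 h with h | h
    · rw [h] at d23; norm_num at d23
    · simp [h]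
  by_cases d11 : 11 ∣ orderOf g
  · obtain ⟨y, hy, hyo, hyc⟩ := step M 11 (by norm_num) r11 h11
      (fun x hx hxo => hsyl 11 (by norm_num) (by norm_num) r11 x hr11 hx h11 hxo) g hg hn0 d11
    have h := c11 y hy hyc (hyo ▸ hodd)
    rw [hyo] at h
    rcases (Nat.dvd_prime (by norm_num)).1 h with h | h
    · rw [h] at d11; norm_num at d11
    · simp [h]
  by_cases d7 : 7 ∣ orderOf g
  · obtain ⟨y, hy, hyo, hyc⟩ := step M 7 (by norm_num) r7 h7
      (fun x hx hxo => hsyl 7 (by norm_num) (by norm_num) r7 x hr7 hx h7 hxo) g hg hn0 d7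
    have h := c7 y hy hyc (hyo ▸ hodd)
    rw [hyo] at h
    rcases l21 _ (Nat.le_of_dvd (by norm_num) h) h d7 with h | h <;> simp [h]
  by_cases d5 : 5 ∣ orderOf g
  · obtain ⟨y, hy, hyo, hyc⟩ := step M 5 (by norm_num) r5 h5
      (fun x hx hxo => hsyl 5 (by norm_num) (by norm_num) r5 x hr5 hx h5 hxo) g hg hn0 d5
    have h := c5 y hy hyc (hyo ▸ hodd)
    rw [hyo] at h
    rcases l15 _ (Nat.le_of_dvd (by norm_num) h) h d5 with h | h <;> simp [h]
  -- now the order divides 27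
  have hcop : Nat.Coprime (orderOf g) 9067520 := by
    have e : (9067520 : ℕ) = 2 ^ 10 * 5 * 7 * 11 * 23 := by norm_num
    rw [e]
    have c2 : Nat.Coprime (orderOf g) 2 := Nat.Coprime.symm
      ((Nat.Prime.coprime_iff_not_dvd Nat.prime_two).2
        (fun h => (Nat.not_even_iff_odd.2 hodd) (even_iff_two_dvd.2 h)))
    have c5' : Nat.Coprime (orderOf g) 5 := Nat.Coprime.symm
      ((Nat.Prime.coprime_iff_not_dvd (by norm_num)).2 d5)
    have c7' : Nat.Coprime (orderOf g) 7 := Nat.Coprime.symm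
      ((Nat.Prime.coprime_iff_not_dvd (by norm_num)).2 d7)
    have c11' : Nat.Coprime (orderOf g) 11 := Nat.Coprime.symm
      ((Nat.Prime.coprime_iff_not_dvd (by norm_num)).2 d11)
    have c23' : Nat.Coprime (orderOf g) 23 := Nat.Coprime.symm
      ((Nat.Prime.coprime_iff_not_dvd (by norm_num)).2 d23)
    exact Nat.Coprime.mul_right (Nat.Coprime.mul_right (Nat.Coprime.mul_right
      (Nat.Coprime.mul_right (Nat.Coprime.pow_right 10 c2) c5') c7') c11') c23'
  have h27 : orderOf g ∣ 27 := by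
    have e : (244823040 : ℕ) = 27 * 9067520 := by norm_num
    rw [e] at hdvd
    exact hcop.dvd_of_dvd_mul_right hdvd
  have hg3 : g ^ 3 = 1 := c3 g hg (orderOf_dvd_iff_pow_eq_one.1 h27)
  have h3 : orderOf g ∣ 3 := orderOf_dvd_of_pow_eq_one hg3
  rcases (Nat.dvd_prime Nat.prime_three).1 h3 with h | h <;> simp [h]

end Gen

/-- piece ORD -/
theorem main : Syl → Ord := by
  intro hSyl r5 r7 r11 r23 hr5 hr7 hr11 hr23 h5 h7 h11 h23 c5 c7 c11 c23 c3 g hg hodd
  have : Finite ↥M24 := Nat.finite_of_card_ne_zero (by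
    rw [Cfsg.Agent.Lib.Helper7.M24Main.card_M24]; norm_num)
  exact core M24 Cfsg.Agent.Lib.Helper7.M24Main.card_M24 r5 r7 r11 r23 h5 h7 h11 h23 hSyl
    hr5 hr7 hr11 hr23 c5 c7 c11 c23 c3 g hg hodd

end Cfsg.Agent.Lib.Helper67.M24BlkORD
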