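import Cfsg.Agent.Lib.Helper27.OzStmt

/-!
S5388 piece TWIT: the two witnesses pass to the quotient by the centre.
-/

set_option autoImplicit false

namespace Cfsg.Agent.Lib.Helper67.OzTWIT

open Cfsg Cfsg.Agent.Lib.Helper27.OzStmt

section

variable {A : Type} [Group A] {t n : A} {K : Subgroup A}
  {φ : ↥(Subgroup.centralizer ({t} : Set A)) →* O8}

theorem n_comm (c : Ctx A t n K φ) (x : A) : n * x = x * n := by
  have h1 : n ∈ Subgroup.center A := (c.center n).mpr (Or.inr rfl)
  exact (Subgroup.mem_center_iff.mp h1 x).symm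

theorem n_inv (c : Ctx A t n K φ) : n⁻¹ = n := by
  have h1 : n ∈ Subgroup.center A := (c.center n).mpr (Or.inr rfl)
  have h2 : n⁻¹ ∈ Subgroup.center A := Subgroup.inv_mem _ h1
  rcases (c.center n⁻¹).mp h2 with h | h
  · exact absurd (inv_eq_one.mp h) c.n_ne
  · exact h

/-- Equal images modulo the centre. -/
theorem mk_eq_iff (c : Ctx A t n K φ) (x y : A) :
    QuotientGroup.mk' (Subgroup.center A) x = QuotientGroup.mk' (Subgroup.center A) y ↔
      (y = x ∨ y = n * x) := by
  rw [QuotientGroup.mk'_apply, QuotientGroup.mk'_apply, QuotientGroup.eq, c.center]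
  constructor
  · rintro (h | h)
    · left
      exact (inv_mul_eq_one.mp h).symm
    · right
      rw [n_comm c x]
      exact eq_mul_of_inv_mul_eq h
  · rintro (h | h)
    · left; rw [h]; exact inv_mul_cancel x
    · right; rw [h, n_comm c x, inv_mul_cancel_left]

/-- The image of `g` centralizes the image of `t` iff `g` centralizes `t`. -/
theorem mem_Cbar_iff (c : Ctx A t n K φ) (g : A) :
    QuotientGroup.mk' (Subgroup.center A) g ∈ Cbar A t ↔ g * t = t * g := by
  rw [Subgroup.mem_centralizer_iff]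
  constructor
  · intro h
    have h1 := h (zbar A t) rfl
    have h2 : QuotientGroup.mk' (Subgroup.center A) (t * g) =
        QuotientGroup.mk' (Subgroup.center A) (g * t) := by
      rw [map_mul, map_mul]; exact h1
    rcases (mk_eq_iff c _ _).mp h2 with h3 | h3
    · exact h3
    · exfalso
      apply c.not_conj g
      rw [h3]
      simp only [mul_assoc, mul_inv_cancel, mul_one]
  · intro h x hx
    rw [Set.mem_singleton_iff] at hx
    rw [hx]
    show QuotientGroup.mk' (Subgroup.center A) t * QuotientGroup.mk' (Subgroup.center A) g =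
      QuotientGroup.mk' (Subgroup.center A) g * QuotientGroup.mk' (Subgroup.center A) t
    rw [← map_mul, ← map_mul, h]

/-- An element of `K` whose image is trivial is trivial. -/
theorem eq_of_mk_eq_of_mem (c : Ctx A t n K φ) (x y : A) (hx : x ∈ K) (hy : y ∈ K)
    (h : QuotientGroup.mk' (Subgroup.center A) x = QuotientGroup.mk' (Subgroup.center A) y) :
    y = x := by
  rcases (mk_eq_iff c _ _).mp h with h1 | h1
  · exact h1
  · exfalso
    apply c.n_not_mem
    have e : n = y * x⁻¹ := by rw [h1, mul_inv_cancel_right]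
    rw [e]
    exact K.mul_mem hy (K.inv_mem hx)

theorem mem_Qbar_iff (x : ↥(Cbar A t)) :
    x ∈ Qbar A t K ↔ (x : A ⧸ Subgroup.center A) ∈ K.map (QuotientGroup.mk' (Subgroup.center A)) :=
  Iff.rfl

end

theorem main : TWit := by
  intro A _ _ t n K φ c hw1 hw2
  constructor
  · obtain ⟨g, hgt, k, hk, k', hk', hne⟩ := hw1
    have hgC := (mem_Cbar_iff c g).mpr hgt
    have hkC := (mem_Cbar_iff c k).mpr (c.K_comm k hk)
    have hk'C := (mem_Cbar_iff c k').mpr (c.K_comm k' hk')
    refine ⟨⟨_, hgC⟩, ⟨_, hkC⟩, ?_, ⟨_, hk'C⟩, ?_, ?_⟩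
    · rw [mem_Qbar_iff]; exact Subgroup.mem_map_of_mem _ hk
    · rw [mem_Qbar_iff]; exact Subgroup.mem_map_of_mem _ hk'
    · intro heq
      apply hne
      have h1 := congrArg (fun x : ↥(Cbar A t) => (x : A ⧸ Subgroup.center A)) heq
      have h2 : QuotientGroup.mk' (Subgroup.center A) ((g * k * g⁻¹ * k⁻¹) * k') =
          QuotientGroup.mk' (Subgroup.center A) (k' * (g * k * g⁻¹ * k⁻¹)) := by
        simp only [map_mul, map_inv]
        exact h1
      have hcK : g * k * g⁻¹ * k⁻¹ ∈ K := K.mul_mem (c.K_normal g hgt k hk) (K.inv_mem hk)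
      exact (eq_of_mk_eq_of_mem c _ _ (K.mul_mem hcK hk') (K.mul_mem hk' hcK) h2).symm
  · obtain ⟨a, haK, hat⟩ := hw2
    have hn1 : QuotientGroup.mk' (Subgroup.center A) n = 1 := by
      rw [QuotientGroup.mk'_apply, QuotientGroup.eq_one_iff]
      exact (c.center n).mpr (Or.inr rfl)
    have e : QuotientGroup.mk' (Subgroup.center A) a * zbar A t *
        (QuotientGroup.mk' (Subgroup.center A) a)⁻¹ =
        QuotientGroup.mk' (Subgroup.center A) (n * (a * t * a⁻¹)) := by
      rw [map_mul, hn1, one_mul, map_mul, map_mul, map_inv]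
      rfl
    refine ⟨QuotientGroup.mk' (Subgroup.center A) a, ⟨?_, ?_⟩, ?_⟩
    · rw [e]
      exact (mem_Cbar_iff c _).mpr (c.K_comm _ haK)
    · rw [mem_Qbar_iff]
      show QuotientGroup.mk' (Subgroup.center A) a * zbar A t *
        (QuotientGroup.mk' (Subgroup.center A) a)⁻¹ ∈ _
      rw [e]
      exact Subgroup.mem_map_of_mem _ haK
    · intro heq
      have h1 : QuotientGroup.mk' (Subgroup.center A) t =
          QuotientGroup.mk' (Subgroup.center A) (a * t * a⁻¹) := by
        rw [map_mul, map_mul, map_inv]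
        exact heq.symm
      rcases (mk_eq_iff c _ _).mp h1 with h2 | h2
      · exact hat h2
      · exact c.not_conj a h2

end Cfsg.Agent.Lib.Helper67.OzTWIT
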