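import Cfsg.Agent.Lib.Helper27.OzStmt
import Cfsg.Agent.Lib.Helper90.FStarES
import Cfsg.Agent.Lib.Helper67.OzTWIT

/-!
S5388 piece TQ: the image of the involution in the quotient by the centre has order two; the
image of `K` is a normal extraspecial subgroup of order `2 ^ 9` of its centraliser.
-/

set_option autoImplicit false

namespace Cfsg.Agent.Lib.Helper67.OzTQ

open Cfsg Cfsg.Agent.Lib.Helper27.OzStmt Cfsg.Agent.Lib.Helper67.OzTWIT

theorem main : TQ := by
  intro A _ _ t n K φ c
  have hf2 : Fact (Nat.Prime 2) := ⟨Nat.prime_two⟩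
  refine ⟨?_, ?_, ?_⟩
  · -- order of the image of `t`
    apply orderOf_eq_prime
    · show (QuotientGroup.mk' (Subgroup.center A) t) ^ 2 = 1
      rw [← map_pow, pow_two, c.t_sq, map_one]
    · intro h
      have h1 : QuotientGroup.mk' (Subgroup.center A) t = 1 := h
      rw [QuotientGroup.mk'_apply, QuotientGroup.eq_one_iff, c.center] at h1
      rcases h1 with h2 | h2
      · exact c.t_ne h2
      · exact c.n_not_mem (h2 ▸ c.t_mem)
  · -- normality
    constructor
    intro q hq g
    rw [mem_Qbar_iff] at hq ⊢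
    obtain ⟨k, hk, hkq⟩ := Subgroup.mem_map.mp hq
    obtain ⟨g₀, hg₀⟩ := QuotientGroup.mk'_surjective (Subgroup.center A) (g : A ⧸ Subgroup.center A)
    have hg₀t : g₀ * t = t * g₀ := (mem_Cbar_iff c g₀).mp (by rw [hg₀]; exact g.2)
    refine Subgroup.mem_map.mpr ⟨g₀ * k * g₀⁻¹, c.K_normal g₀ hg₀t k hk, ?_⟩
    rw [map_mul, map_mul, map_inv, hg₀, hkq]
    rfl
  · -- the isomorphism with `K`
    have h1 : ∀ k : K, (QuotientGroup.mk' (Subgroup.center A)).comp K.subtype k ∈ Cbar A t :=
      fun k => (mem_Cbar_iff c k).mpr (c.K_comm k k.2)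
    have h2 : ∀ k : K, (((QuotientGroup.mk' (Subgroup.center A)).comp K.subtype).codRestrict
        (Cbar A t) h1) k ∈ Qbar A t K := by
      intro k
      rw [mem_Qbar_iff]
      exact Subgroup.mem_map_of_mem _ k.2
    obtain ⟨f, hf⟩ : ∃ f : K →* ↥(Qbar A t K), ∀ k : K,
        (((f k : ↥(Qbar A t K)) : ↥(Cbar A t)) : A ⧸ Subgroup.center A) =
          QuotientGroup.mk' (Subgroup.center A) (k : A) :=
      ⟨(((QuotientGroup.mk' (Subgroup.center A)).comp K.subtype).codRestrict
        (Cbar A t) h1).codRestrict (Qbar A t K) h2, fun k => rfl⟩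
    have hinj : Function.Injective f := by
      intro k k' h
      have h3 : QuotientGroup.mk' (Subgroup.center A) (k : A) =
          QuotientGroup.mk' (Subgroup.center A) (k' : A) := by
        rw [← hf, ← hf, h]
      exact Subtype.ext (eq_of_mk_eq_of_mem c _ _ k.2 k'.2 h3).symm
    have hsurj : Function.Surjective f := by
      intro q
      have hq : ((q : ↥(Cbar A t)) : A ⧸ Subgroup.center A) ∈
          K.map (QuotientGroup.mk' (Subgroup.center A)) := (mem_Qbar_iff _).mp q.2
      obtain ⟨k, hk, hkq⟩ := Subgroup.mem_map.mp hq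
      refine ⟨⟨k, hk⟩, ?_⟩
      apply Subtype.ext
      apply Subtype.ext
      rw [hf]
      exact hkq
    have e : K ≃* ↥(Qbar A t K) := MulEquiv.ofBijective f ⟨hinj, hsurj⟩
    refine ⟨Cfsg.Agent.Lib.Helper90.FStarES.isExtraspecial_of_mulEquiv e c.xs, ?_⟩
    rw [← Nat.card_congr e.toEquiv, c.card_K]

end Cfsg.Agent.Lib.Helper67.OzTQ
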