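import Mathlib
import Cfsg.Agent.Lib.Helper18.ReeMultStmt

/-! S2113 piece U0U0: lifts of `x 0 u 0`, `x 0 u' 0` commute. Also general tools on the torus
invariance of `cm`. -/

set_option autoImplicit false

namespace Cfsg.Agent.Lib.Helper67.ReeMultU0U0

open Cfsg.Agent.Lib.Helper18 Cfsg.Agent.Lib.Helper18.ReeMultStmt

universe u v w

section tools

variable {Γ : Type w} [Group Γ] {G : Type u} [Group G] {K : Type v} [Field K] [Fintype K]
  {m : ℕ} {φ : K →+* K} {x : K → K → K → G} {e : K → G} {σ : Γ →* G}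

omit [Group G] [Field K] [Fintype K] in
theorem x_congr (x : K → K → K → G) {a b c a' b' c' : K} (h1 : a = a') (h2 : b = b')
    (h3 : c = c') : x a b c = x a' b' c' := by
  subst h1 h2 h3; rfl

/-- conjugation of `x t u v` by `e s` -/
theorem e_conj (E : Ext Γ G K m φ x e σ) (s : K) (hs : s ≠ 0) (t u v : K) :
    e s * x t u v * (e s)⁻¹ = x (s ^ 2 / φ s ^ 3 * t) (φ s ^ 3 / s * u) (s * v) := by
  rw [E.par.e_x s hs, mul_inv_cancel_right]

/-- invariance of `cm` under the torus for commuting pairs -/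
theorem cm_torus (E : Ext Γ G K m φ x e σ) (s : K) (a b : G) (hab : a * b = b * a) :
    cm σ E.surj (e s * a * (e s)⁻¹) (e s * b * (e s)⁻¹) = cm σ E.surj a b := by
  have h := conj_cm σ E.surj E.cen (sec σ E.surj (e s)) a b
  rw [sec_spec] at h
  rw [← h, cm_central σ E.surj E.cen hab, mul_inv_cancel_right]

theorem x_0u0_mul (E : Ext Γ G K m φ x e σ) (u u' : K) :
    x 0 u 0 * x 0 u' 0 = x 0 (u + u') 0 := by
  rw [E.par.x_mul]
  exact x_congr x (by ring) (by ring) (by ring)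

theorem x_0u0_comm (E : Ext Γ G K m φ x e σ) (u u' : K) :
    x 0 u 0 * x 0 u' 0 = x 0 u' 0 * x 0 u 0 := by
  rw [x_0u0_mul E, x_0u0_mul E, add_comm]

/-- `ψ (r φ(r)³) = r²` -/
theorem psi_sq (E : Ext Γ G K m φ x e σ) (r : K) (hr : r ≠ 0) :
    φ (r * φ r ^ 3) ^ 3 / (r * φ r ^ 3) = r ^ 2 := by
  have hφ : φ (r * φ r ^ 3) = φ r * r := by rw [map_mul, map_pow, E.par.phi3]
  have hφr : φ r ≠ 0 := (map_ne_zero φ).mpr hr
  rw [hφ]
  field_simp

end tools

open scoped IsMulCommutative in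
theorem main (h1 : SQFORM.{v, w}) (h2 : EXR.{v}) : U0U0.{u, v, w} := by
  intro Γ _ G _ K _ _ m φ x e σ E u u'
  obtain ⟨r, hr0, hr8, -⟩ := h2 K m E.par.hm E.par.cardK
  let B : K → K → ↥(Subgroup.center Γ) := fun a b =>
    ⟨cm σ E.surj (x 0 a 0) (x 0 b 0), E.cen (cm_mem_ker σ E.surj (x_0u0_comm E a b))⟩
  have hB : ∀ a b, B a b = 1 := by
    refine h1 K ↥(Subgroup.center Γ) B E.par.char3 ⟨r, hr0, hr8⟩ ?_ ?_ ?_
    · intro a a' b
      apply Subtype.ext
      show cm σ E.surj (x 0 (a + a') 0) (x 0 b 0) =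
        cm σ E.surj (x 0 a 0) (x 0 b 0) * cm σ E.surj (x 0 a' 0) (x 0 b 0)
      rw [← x_0u0_mul E, cm_mul_left_c σ E.surj E.cen (x_0u0_comm E a' b)]
    · intro a b b'
      apply Subtype.ext
      show cm σ E.surj (x 0 a 0) (x 0 (b + b') 0) =
        cm σ E.surj (x 0 a 0) (x 0 b 0) * cm σ E.surj (x 0 a 0) (x 0 b' 0)
      rw [← x_0u0_mul E, cm_mul_right_c σ E.surj E.cen (x_0u0_comm E a b')]
    · intro r a b hr
      apply Subtype.ext
      show cm σ E.surj (x 0 (r ^ 2 * a) 0) (x 0 (r ^ 2 * b) 0) =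
        cm σ E.surj (x 0 a 0) (x 0 b 0)
      have hφr : φ r ≠ 0 := (map_ne_zero φ).mpr hr
      have hs : r * φ r ^ 3 ≠ 0 := mul_ne_zero hr (pow_ne_zero _ hφr)
      have key := cm_torus E (r * φ r ^ 3) (x 0 a 0) (x 0 b 0) (x_0u0_comm E a b)
      rw [e_conj E _ hs, e_conj E _ hs, psi_sq E r hr, mul_zero, mul_zero] at key
      exact key
  exact congrArg Subtype.val (hB u u')

end Cfsg.Agent.Lib.Helper67.ReeMultU0U0
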