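import Mathlib
import Cfsg.Agent.Lib.Helper41.SubfStmt
import Cfsg.Agent.Lib.Helper40.SSConj
import Cfsg.Agent.S2568

/-!
# S5965 / REFL: for `r ∈ {3, 5}`, `r ∣ q - 1`, an element `x` of `SL_r(q)` with `x ^ r = 1` has the
characteristic polynomial of some `ω • x⁻¹`, `ω ^ r = 1`.
-/

set_option autoImplicit false
universe u

namespace Cfsg.Agent.Lib.Helper67.SubfREFL

open Polynomial UniqueFactorizationMonoid
open Cfsg.Agent.Lib.Helper41.SubfStmt

theorem exists_fun_of_list {α : Type*} (l : List α) :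
    ∃ lam : Fin l.length → α,
      (Finset.univ : Finset (Fin l.length)).val.map lam = (l : Multiset α) :=
  ⟨fun j => l.get j, by rw [Fin.univ_val_map, List.ofFn_get]⟩

/-- list a multiset of cardinality `n` by a function on `Fin n` -/
theorem exists_fun_of_card {α : Type*} (s : Multiset α) (n : ℕ) (h : Multiset.card s = n) :
    ∃ lam : Fin n → α, (Finset.univ : Finset (Fin n)).val.map lam = s := by
  obtain ⟨l, hl⟩ : ∃ l : List α, (l : Multiset α) = s := ⟨s.toList, Multiset.coe_toList s⟩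
  subst hl
  have hn : l.length = n := by simpa using h
  subst hn
  exact exists_fun_of_list l

/-- a product over the index set as a product over the values with multiplicities -/
theorem prod_comp_mult {n r : ℕ} [NeZero r] {M : Type*} [CommMonoid M] (e : Fin n → ZMod r)
    (G : ZMod r → M) :
    ∏ j, G (e j) = ∏ a, G a ^ (Finset.univ.filter (fun j => e j = a)).card := by
  rw [← Finset.prod_fiberwise Finset.univ e (fun j => G (e j))]
  refine Finset.prod_congr rfl (fun a _ => ?_)
  rw [Finset.prod_congr rfl (fun j hj => by rw [(Finset.mem_filter.mp hj).2]), Finset.prod_const]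

theorem pow_mod_of {M : Type*} [Monoid M] (ζ : M) (r : ℕ) (hζr : ζ ^ r = 1) (a : ℕ) :
    ζ ^ (a % r) = ζ ^ a := by
  conv_rhs => rw [← Nat.div_add_mod a r, pow_add, pow_mul, hζr, one_pow, one_mul]

theorem main (h : ReflComb) : Refl.{u} := by
  intro F _ _ r hr hdvd x hdet hxr
  classical
  have hrp : r.Prime := by rcases hr with rfl | rfl <;> norm_num
  have : Fact r.Prime := ⟨hrp⟩
  have hr0 : 0 < r := hrp.pos
  have : NeZero r := ⟨hr0.ne'⟩
  -- a primitive `r`-th root of unity
  obtain ⟨ζu, hζu⟩ : ∃ ζ : Fˣ, orderOf ζ = r := by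
    apply exists_prime_orderOf_dvd_card r
    rw [Fintype.card_units]
    exact hdvd
  have hζ : IsPrimitiveRoot (ζu : F) r :=
    IsPrimitiveRoot.coe_units_iff.mpr (hζu ▸ IsPrimitiveRoot.orderOf ζu)
  obtain ⟨ζ, hζdef⟩ : ∃ ζ : F, ζ = (ζu : F) := ⟨_, rfl⟩
  rw [← hζdef] at hζ
  have hζr : ζ ^ r = 1 := hζ.pow_eq_one
  have hζ0 : ζ ≠ 0 := by
    intro h0
    rw [h0, zero_pow hr0.ne'] at hζr
    exact zero_ne_one hζr
  have hrF : (r : F) ≠ 0 := (hζ.neZero').ne
  -- the characteristic polynomial splits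
  have hdiv : x.charpoly ∣ (X ^ r - C (1 : F)) ^ Multiset.card (normalizedFactors x.charpoly) := by
    conv_lhs => rw [← Cfsg.Agent.S2568.prod_nf x.charpoly (Matrix.charpoly_monic x)]
    exact Cfsg.Agent.S2568.prod_dvd_pow _ _ (fun P hP =>
      Cfsg.Agent.S2568.dvd_of_mem_nf_charpoly x _
        (by rw [map_sub, map_pow, aeval_X, aeval_C, map_one, hxr, sub_self]) P hP)
  have hsplit : x.charpoly.Splits :=
    Splits.of_dvd ((X_pow_sub_one_splits hζ).pow _)
      (pow_ne_zero _ (X_pow_sub_C_ne_zero hr0 1)) hdiv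
  have hcard : Multiset.card x.charpoly.roots = r := by
    rw [← hsplit.natDegree_eq_card_roots, Matrix.charpoly_natDegree_eq_dim, Fintype.card_fin]
  obtain ⟨lam, hlam⟩ := exists_fun_of_card x.charpoly.roots r hcard
  have hcp : x.charpoly = (Matrix.diagonal lam).charpoly := by
    rw [Matrix.charpoly_diagonal]
    conv_lhs => rw [hsplit.eq_prod_roots_of_monic (Matrix.charpoly_monic x), ← hlam]
    rw [Multiset.map_map, Finset.prod_eq_multiset_prod]
    rfl
  have hlamr : ∀ j, lam j ^ r = 1 := by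
    intro j
    have hmem : lam j ∈ x.charpoly.roots := by
      rw [← hlam]
      exact Multiset.mem_map_of_mem _ (Finset.mem_univ_val j)
    have hroot : x.charpoly.IsRoot (lam j) := (Polynomial.mem_roots'.mp hmem).2
    obtain ⟨c, hc⟩ := hdiv
    have h1 := congrArg (Polynomial.eval (lam j)) hc
    rw [eval_pow, eval_mul, hroot.eq_zero, zero_mul] at h1
    have h3 : Polynomial.eval (lam j) (X ^ r - C (1 : F)) = 0 := by
      by_contra hne
      exact (pow_ne_zero _ hne) h1
    rw [eval_sub, eval_pow, eval_X, eval_C] at h3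
    exact sub_eq_zero.mp h3
  have hlam0 : ∀ j, lam j ≠ 0 := by
    intro j h0
    have h1 := hlamr j
    rw [h0, zero_pow hr0.ne'] at h1
    exact zero_ne_one h1
  -- exponents
  have hex : ∀ j, ∃ i < r, ζ ^ i = lam j := fun j => hζ.eq_pow_of_pow_eq_one (hlamr j)
  choose i hi hilam using hex
  obtain ⟨e, hedef⟩ : ∃ e : Fin r → ZMod r, e = fun j => ((i j : ℕ) : ZMod r) := ⟨_, rfl⟩
  have heval : ∀ j, (e j).val = i j := by
    intro j
    rw [hedef]
    simp only
    rw [ZMod.val_natCast, Nat.mod_eq_of_lt (hi j)]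
  have hlame : ∀ j, lam j = ζ ^ (e j).val := by
    intro j
    rw [heval, hilam]
  -- the diagonal form
  have hD : (Matrix.diagonal lam) ^ r = 1 := by
    rw [Matrix.diagonal_pow]
    have : lam ^ r = 1 := funext hlamr
    rw [this]
    exact Matrix.diagonal_one
  obtain ⟨P, Q, hPQ, hQP, hPx⟩ :=
    Cfsg.Agent.Lib.Helper40.SSConj.matrix_conj x (Matrix.diagonal lam) r hrF hxr hD hcp
  -- the sum of the exponents
  have hdetD : (Matrix.diagonal lam).det = 1 := by
    rw [Matrix.det_eq_sign_charpoly_coeff, ← hcp, ← Matrix.det_eq_sign_charpoly_coeff, hdet]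
  have hsum : ∑ j, e j = 0 := by
    rw [Matrix.det_diagonal] at hdetD
    have h1 : ∏ j, lam j = ζ ^ (∑ j, (e j).val) := by
      rw [← Finset.prod_pow_eq_pow_sum]
      exact Finset.prod_congr rfl (fun j _ => hlame j)
    rw [h1] at hdetD
    have h2 : r ∣ ∑ j, (e j).val := (hζ.pow_eq_one_iff_dvd _).mp hdetD
    have h3 : ((∑ j, (e j).val : ℕ) : ZMod r) = 0 := (ZMod.natCast_eq_zero_iff _ _).mpr h2
    rw [Nat.cast_sum] at h3
    rw [← h3]
    exact Finset.sum_congr rfl (fun j _ => (ZMod.natCast_zmod_val (e j)).symm)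
  obtain ⟨w, hw⟩ := h r hr e hsum
  refine ⟨ζ ^ w.val, ?_, ?_⟩
  · rw [← pow_mul, mul_comm, pow_mul, hζr, one_pow]
  intro y hxy
  have hyx : y * x = 1 := mul_eq_one_comm.mp hxy
  obtain ⟨D', hD'def⟩ : ∃ D' : Matrix (Fin r) (Fin r) F,
    D' = Matrix.diagonal (fun j => (lam j)⁻¹) := ⟨_, rfl⟩
  have hD'D : D' * Matrix.diagonal lam = 1 := by
    rw [hD'def, Matrix.diagonal_mul_diagonal]
    have : (fun j => (lam j)⁻¹ * lam j) = fun _ => (1 : F) :=
      funext (fun j => inv_mul_cancel₀ (hlam0 j))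
    rw [this, Matrix.diagonal_one]
  have hPy : P * y = D' * P := by
    calc P * y = (D' * Matrix.diagonal lam) * (P * y) := by rw [hD'D, Matrix.one_mul]
      _ = D' * ((Matrix.diagonal lam * P) * y) := by simp only [Matrix.mul_assoc]
      _ = D' * ((P * x) * y) := by rw [hPx]
      _ = D' * P := by rw [Matrix.mul_assoc P x y, hxy, Matrix.mul_one]
  have hy : ζ ^ w.val • y = Q * ((ζ ^ w.val • D') * P) := by
    rw [Matrix.smul_mul, ← hPy, Matrix.mul_smul, ← Matrix.mul_assoc, hQP, Matrix.one_mul]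
  rw [hy, Matrix.charpoly_mul_comm, Matrix.mul_assoc, hPQ, Matrix.mul_one, hD'def,
    ← Matrix.diagonal_smul, Matrix.charpoly_diagonal, hcp, Matrix.charpoly_diagonal]
  -- the combinatorial identity
  obtain ⟨g, hgdef⟩ : ∃ g : ZMod r → F[X], g = fun a => X - C (ζ ^ a.val) := ⟨_, rfl⟩
  have hord : orderOf ζ = r := hζ.eq_orderOf.symm
  have h1 : ∀ j, X - C ((ζ ^ w.val • fun j => (lam j)⁻¹) j) = g (w - e j) := by
    intro j
    rw [hgdef]
    simp only [Pi.smul_apply, smul_eq_mul]
    congr 2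
    rw [hlame j, eq_comm, eq_mul_inv_iff_mul_eq₀ (pow_ne_zero _ hζ0), ← pow_add,
      ← pow_mod_of ζ r hζr (_ + _), ← pow_mod_of ζ r hζr w.val]
    congr 1
    rw [← ZMod.natCast_eq_natCast_iff', Nat.cast_add, ZMod.natCast_zmod_val,
      ZMod.natCast_zmod_val, ZMod.natCast_zmod_val, sub_add_cancel]
  have h2 : ∀ j, X - C (lam j) = g (e j) := by
    intro j
    rw [hgdef, hlame j]
  rw [Finset.prod_congr rfl (fun j _ => h1 j), Finset.prod_congr rfl (fun j _ => h2 j),
    prod_comp_mult e g, prod_comp_mult e (fun a => g (w - a))]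
  rw [← Equiv.prod_comp (Equiv.subLeft w)
    (fun a => g a ^ (Finset.univ.filter (fun j => e j = a)).card)]
  refine Finset.prod_congr rfl (fun a _ => ?_)
  simp only [Equiv.subLeft_apply]
  rw [← hw a]

end Cfsg.Agent.Lib.Helper67.SubfREFL
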