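import Cfsg.Agent.Lib.Helper14.TC3Stmt
import Cfsg.Agent.Lib.Helper67.TC3H1
import Cfsg.Agent.Lib.CT.NormOne
import Cfsg.Agent.Lib.CT.LinChar
import Cfsg.Agent.Lib.CT.Ops
import Cfsg.Agent.Lib.CT.Orth
import Cfsg.Agent.Lib.CT.Kernel
import Cfsg.Agent.Lib.CT.Wedderburn
import Cfsg.Agent.Lib.Helper3.MGroup

/-!
# S4460 piece H2 (helper67)
-/

set_option autoImplicit false

namespace Cfsg.Agent.Lib.Helper67.TC3H2

open Cfsg Cfsg.Agent.Lib.Helper14.TC3Stmt
open Cfsg.Agent.Lib.CT Cfsg.Agent.Lib.CT.Wedderburn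
open Cfsg.Agent.Lib.Helper67.TC3H1
open scoped ComplexConjugate commutatorElement

universe u

theorem charDegree_conj {G : Type u} [Group G] (φ : G → ℂ) :
    charDegree (fun g => conj (φ g)) = charDegree φ := by
  simp [charDegree]

theorem inner_swap {G : Type u} [Group G] [Fintype G] (φ η ψ : G → ℂ) :
    classInner (fun g => conj (φ g) * η g) ψ = conj (classInner (fun g => φ g * ψ g) η) := by
  unfold classInner
  rw [map_mul, map_inv₀, map_natCast, map_sum]
  congr 1
  refine Finset.sum_congr rfl fun g _ => ?_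
  simp only [map_mul, Complex.conj_conj]
  ring

theorem main : H2.{u} := by
  intro G _ _ m n hdeg hm1 hmn hHm hHn hU
  classical
  by_contra hcon'
  have hcon : ∀ χ₁ χ₂ ψ : IrrCharacter G, charDegree (χ₁ : G → ℂ) = m →
      charDegree (χ₂ : G → ℂ) = m → charDegree (ψ : G → ℂ) = n →
      classInner (fun g => (χ₁ : G → ℂ) g * (χ₂ : G → ℂ) g) (ψ : G → ℂ) = 0 := by
    intro χ₁ χ₂ ψ h1 h2 h3
    by_contra h4
    exact hcon' ⟨χ₁, χ₂, ψ, h1, h2, h3, h4⟩
  haveI := finite_irrCharacter G
  haveI : Fintype (IrrCharacter G) := Fintype.ofFinite _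
  have hdeg1 : ∀ {χ : G → ℂ}, IsIrrCharacter G χ → charDegree χ = 1 → χ 1 = 1 := by
    intro χ hχ h
    rw [← char_natCast_charDegree (isCharacter_of_irr hχ), h]; simp
  have key1 : ∀ φ₁ φ₂ : G → ℂ, IsIrrCharacter G φ₁ → IsIrrCharacter G φ₂ →
      charDegree φ₁ ≠ n → charDegree φ₂ ≠ n → ∀ ψ : IrrCharacter G,
      charDegree (ψ : G → ℂ) = n → classInner (fun g => φ₁ g * φ₂ g) (ψ : G → ℂ) = 0 := by
    intro φ₁ φ₂ hφ₁ hφ₂ hd₁ hd₂ ψ hψ
    have lin : ∀ (ξ : G → ℂ) (hξ : IsIrrCharacter G ξ), charDegree ξ ≠ n →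
        classInner ξ (ψ : G → ℂ) = 0 := by
      intro ξ hξ hdξ
      have hort := irr_orthonormal ⟨ξ, hξ⟩ ψ
      have hne : (⟨ξ, hξ⟩ : IrrCharacter G) ≠ ψ := by
        intro heq
        apply hdξ
        rw [← hψ, ← heq]
      rw [if_neg hne] at hort
      exact hort
    rcases hdeg ⟨φ₁, hφ₁⟩ with h | h | h
    · have h11 : φ₁ 1 = 1 := hdeg1 hφ₁ h
      have hirr : IsIrrCharacter G (φ₁ * φ₂) :=
        LinChar.isIrrCharacter_linear_mul (isCharacter_of_irr hφ₁) h11 hφ₂
      have hd : charDegree (φ₁ * φ₂) = charDegree φ₂ := by simp [charDegree, h11]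
      exact lin _ hirr (show charDegree (φ₁ * φ₂) ≠ n by rw [hd]; exact hd₂)
    · rcases hdeg ⟨φ₂, hφ₂⟩ with h' | h' | h'
      · have h11 : φ₂ 1 = 1 := hdeg1 hφ₂ h'
        have hirr : IsIrrCharacter G (φ₁ * φ₂) :=
          LinChar.isIrrCharacter_mul_linear hφ₁ (isCharacter_of_irr hφ₂) h11
        have hd : charDegree (φ₁ * φ₂) = charDegree φ₁ := by simp [charDegree, h11]
        exact lin _ hirr (show charDegree (φ₁ * φ₂) ≠ n by rw [hd]; exact hd₁)
      · exact hcon ⟨φ₁, hφ₁⟩ ⟨φ₂, hφ₂⟩ ψ h h' hψ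
      · exact absurd h' hd₂
    · exact absurd h hd₁
  let w : IrrCharacter G → ℂ := fun η => if charDegree (η : G → ℂ) = n then 1 else 0
  let Ψ : G → ℂ := fun g => ∑ η : IrrCharacter G, w η * (η : G → ℂ) g
  have hΨeq : Ψ = ∑ η : IrrCharacter G, w η • (η : G → ℂ) := by
    funext g
    simp only [Ψ, Finset.sum_apply, Pi.smul_apply, smul_eq_mul]
  have innerΨ : ∀ η : IrrCharacter G, classInner Ψ (η : G → ℂ) = w η := by
    intro η
    rw [hΨeq, Orth.classInner_sum_left]
    simp only [Orth.classInner_smul_left, irr_orthonormal]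
    simp
  have hn0 : (n : ℂ) ≠ 0 := by
    have : 0 < n := by omega
    exact_mod_cast this.ne'
  have key3 : ∀ φ : IrrCharacter G, charDegree (φ : G → ℂ) ≠ n → ∀ g,
      (φ : G → ℂ) g * Ψ g = (φ : G → ℂ) 1 * Ψ g := by
    intro φ hφ g
    have hfeq : (fun g => (φ : G → ℂ) g * Ψ g - (φ : G → ℂ) 1 * Ψ g)
        = (∑ ψ : IrrCharacter G, w ψ • (fun g => (φ : G → ℂ) g * (ψ : G → ℂ) g))
          - ((φ : G → ℂ) 1) • Ψ := by
      funext x
      simp only [Ψ, Pi.sub_apply, Finset.sum_apply, Pi.smul_apply, smul_eq_mul, Finset.mul_sum]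
      congr 1
      refine Finset.sum_congr rfl fun ψ _ => ?_
      ring
    have hΨcl : IsClassFunction G Ψ := by
      intro x y
      simp only [Ψ]
      refine Finset.sum_congr rfl fun ψ _ => ?_
      rw [Orth.irr_isClassFunction ψ x y]
    have hcl : IsClassFunction G (fun g => (φ : G → ℂ) g * Ψ g - (φ : G → ℂ) 1 * Ψ g) := by
      intro x y
      simp only
      rw [Orth.irr_isClassFunction φ x y, hΨcl x y]
    have h0 : (fun g => (φ : G → ℂ) g * Ψ g - (φ : G → ℂ) 1 * Ψ g) = 0 := by
      apply complete_classInner _ hcl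
      intro η
      rw [hfeq, Orth.classInner_sub_left, Orth.classInner_sum_left, Orth.classInner_smul_left,
        innerΨ]
      simp only [Orth.classInner_smul_left]
      have hsw : ∀ ψ : IrrCharacter G,
          classInner (fun g => (φ : G → ℂ) g * (ψ : G → ℂ) g) (η : G → ℂ)
          = conj (classInner (fun g => conj ((φ : G → ℂ) g) * (η : G → ℂ) g) (ψ : G → ℂ)) := by
        intro ψ
        rw [inner_swap, Complex.conj_conj]
      by_cases hη : charDegree (η : G → ℂ) = n
      · have hΘ : IsCharacter G ((fun g => conj ((φ : G → ℂ) g)) * (η : G → ℂ)) :=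
          Ops.isCharacter_mul (isCharacter_of_irr (conj_irr φ.2)) (isCharacter_of_irr η.2)
        obtain ⟨a, ha, hexp⟩ := NormOne.exists_mult_sum hΘ
        have ha' : ∀ ψ : IrrCharacter G,
            classInner (fun g => conj ((φ : G → ℂ) g) * (η : G → ℂ) g) (ψ : G → ℂ) = a ψ := ha
        have ha0 : ∀ ψ : IrrCharacter G, charDegree (ψ : G → ℂ) ≠ n → a ψ = 0 := by
          intro ψ hψ
          have h1 := ha' ψ
          rw [inner_swap, key1 _ _ φ.2 ψ.2 hφ hψ η hη, map_zero] at h1
          exact_mod_cast h1.symm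
        have hsumw : ∑ ψ : IrrCharacter G, w ψ * (a ψ : ℂ) = (φ : G → ℂ) 1 := by
          have e := congrFun hexp 1
          rw [Finset.sum_apply] at e
          simp only [Pi.mul_apply, Pi.smul_apply, smul_eq_mul] at e
          have hη1 : (η : G → ℂ) 1 = n := by
            rw [← char_natCast_charDegree (isCharacter_of_irr η.2), hη]
          have hφ1 : conj ((φ : G → ℂ) 1) = (φ : G → ℂ) 1 := by
            rw [← char_natCast_charDegree (isCharacter_of_irr φ.2)]; simp
          rw [hη1, hφ1] at e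
          have e2 : ∑ ψ : IrrCharacter G, (a ψ : ℂ) * (ψ : G → ℂ) 1
              = (∑ ψ : IrrCharacter G, w ψ * (a ψ : ℂ)) * n := by
            rw [Finset.sum_mul]
            refine Finset.sum_congr rfl fun ψ _ => ?_
            by_cases hψ : charDegree (ψ : G → ℂ) = n
            · simp only [w, if_pos hψ]
              rw [← char_natCast_charDegree (isCharacter_of_irr ψ.2), hψ]; ring
            · rw [ha0 ψ hψ]; simp
          rw [e2] at e
          exact (mul_right_cancel₀ hn0 e).symm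
        have h5 : ∑ ψ : IrrCharacter G,
            w ψ * classInner (fun g => (φ : G → ℂ) g * (ψ : G → ℂ) g) (η : G → ℂ)
            = (φ : G → ℂ) 1 := by
          rw [← hsumw]
          refine Finset.sum_congr rfl fun ψ _ => ?_
          rw [hsw ψ, ha' ψ]; simp
        rw [h5]
        simp only [w, if_pos hη]; ring
      · have h5 : ∑ ψ : IrrCharacter G,
            w ψ * classInner (fun g => (φ : G → ℂ) g * (ψ : G → ℂ) g) (η : G → ℂ) = 0 := by
          refine Finset.sum_eq_zero fun ψ _ => ?_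
          by_cases hψ : charDegree (ψ : G → ℂ) = n
          · rw [hsw ψ, key1 _ _ (conj_irr φ.2) η.2 (by rw [charDegree_conj]; exact hφ) hη ψ hψ]
            simp
          · simp only [w, if_neg hψ]; ring
        rw [h5]
        simp only [w, if_neg hη]; ring
    have h6 := congrFun h0 g
    exact sub_eq_zero.mp h6
  choose N hNn hNmem using fun η : IrrCharacter G =>
    Kernel.exists_normal_ker (isCharacter_of_irr η.2)
  let K₀ : Subgroup G := ⨅ η : {η : IrrCharacter G // charDegree (η : G → ℂ) ≠ n}, N η.1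
  have hK₀n : K₀.Normal := Subgroup.normal_iInf_normal fun η => hNn η.1
  have hK₀mem : ∀ g, g ∈ K₀ ↔ ∀ η : IrrCharacter G, charDegree (η : G → ℂ) ≠ n →
      (η : G → ℂ) g = (η : G → ℂ) 1 := by
    intro g
    simp only [K₀, Subgroup.mem_iInf, Subtype.forall, hNmem]
  by_cases hbot : K₀ = ⊥
  · have hvan : ∀ g : G, g ≠ 1 → Ψ g = 0 := by
      intro g hg
      by_contra hne
      apply hg
      have hgK : g ∈ K₀ := by
        rw [hK₀mem]
        intro η hη
        exact mul_right_cancel₀ hne (key3 η hη g)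
      rw [hbot] at hgK
      exact Subgroup.mem_bot.mp hgK
    let one : IrrCharacter G := ⟨fun _ => 1, Ops.isIrrCharacter_one⟩
    have h1 := innerΨ one
    have hw1 : w one = 0 := by
      have h7 : charDegree (one : G → ℂ) ≠ n := by
        have h8 : charDegree (one : G → ℂ) = 1 := by simp [charDegree, one]
        omega
      simp only [w, if_neg h7]
    rw [hw1] at h1
    unfold classInner at h1
    rw [Finset.sum_eq_single 1 (fun g _ hg => by rw [hvan g hg, zero_mul])
      (fun h => absurd (Finset.mem_univ _) h)] at h1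
    have hΨ1 : Ψ 1 = 0 := by
      have hne : (Nat.card G : ℂ)⁻¹ ≠ 0 := inv_ne_zero (Nat.cast_ne_zero.mpr Nat.card_pos.ne')
      rcases mul_eq_zero.mp h1 with h | h
      · exact absurd h hne
      · simpa [one] using h
    have hΨ1' : Ψ 1
        = ((∑ η : IrrCharacter G, (if charDegree (η : G → ℂ) = n then n else 0) : ℕ) : ℂ) := by
      simp only [Ψ, w]
      rw [Nat.cast_sum]
      refine Finset.sum_congr rfl fun η _ => ?_
      by_cases hη : charDegree (η : G → ℂ) = n
      · rw [if_pos hη, if_pos hη, one_mul, ← char_natCast_charDegree (isCharacter_of_irr η.2), hη]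
      · rw [if_neg hη, if_neg hη, zero_mul, Nat.cast_zero]
    obtain ⟨ψ₀, hψ₀⟩ := hHn
    have hle : (if charDegree (ψ₀ : G → ℂ) = n then n else 0)
        ≤ ∑ η : IrrCharacter G, (if charDegree (η : G → ℂ) = n then n else 0) :=
      Finset.single_le_sum
        (f := fun η : IrrCharacter G => (if charDegree (η : G → ℂ) = n then n else 0))
        (fun _ _ => Nat.zero_le _) (Finset.mem_univ ψ₀)
    rw [if_pos hψ₀] at hle
    rw [hΨ1'] at hΨ1
    have h9 : (∑ η : IrrCharacter G, (if charDegree (η : G → ℂ) = n then n else 0)) = 0 := by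
      exact_mod_cast hΨ1
    omega
  · have hle : commutator G ≤ K₀ := hU K₀ hK₀n hbot
    obtain ⟨χ, hχ⟩ := hHm
    have hχn : charDegree (χ : G → ℂ) ≠ n := by omega
    have h1 : (χ : G → ℂ) 1 = 1 := by
      apply Cfsg.Agent.Lib.Helper3.MGroup.apply_one_eq_one_of_comm χ.2
      intro a b
      have hmem : ⁅a, b⁆ ∈ commutator G := by
        rw [commutator_def]
        exact Subgroup.commutator_mem_commutator (Subgroup.mem_top a) (Subgroup.mem_top b)
      exact (hK₀mem _).mp (hle hmem) χ hχn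
    have h10 : charDegree (χ : G → ℂ) = 1 := charDegree_eq_of_apply_one (by simpa using h1)
    omega

end Cfsg.Agent.Lib.Helper67.TC3H2
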