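import Mathlib
import Cfsg.Agent.Lib.Helper74.WinStmt

/-! # S4467 piece ARI (helper67) -/

set_option autoImplicit false

namespace Cfsg.Agent.Lib.Helper67.WinARI

open Cfsg.Agent.Lib.Helper74.WinStmt

theorem main : Ari := by
  intro p q z a b n k k' hp hq hpq hza hzb hkk hmod han
  have hq2 : 2 ≤ q := hq.two_le
  obtain ⟨m, -, rfl⟩ : ∃ m ≤ k, a = q ^ m :=
    (Nat.dvd_prime_pow hq).mp (Dvd.intro_left (z * a) (by rw [← hza]; ring))
  obtain ⟨m', -, rfl⟩ : ∃ m' ≤ k', b = q ^ m' :=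
    (Nat.dvd_prime_pow hq).mp (Dvd.intro_left (z * b) (by rw [← hzb]; ring))
  obtain ⟨j, -, rfl⟩ : ∃ j ≤ k, z = q ^ j := (Nat.dvd_prime_pow hq).mp (Dvd.intro _ hza)
  have e1 : j + 2 * m = k := by
    apply Nat.pow_right_injective hq2
    show q ^ (j + 2 * m) = q ^ k
    rw [← hza]; ring
  have e2 : j + 2 * m' = k' := by
    apply Nat.pow_right_injective hq2
    show q ^ (j + 2 * m') = q ^ k'
    rw [← hzb]; ring
  have hm : m' < m := by omega
  have hcop : Nat.Coprime p (q ^ k') :=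
    Nat.Coprime.pow_right _ ((Nat.coprime_primes hp hq).mpr hpq)
  obtain ⟨d, hd⟩ : ∃ d, d = m - m' := ⟨_, rfl⟩
  have hd1 : 1 ≤ d := by omega
  have h1 : q ^ k' * q ^ (2 * d) ≡ q ^ k' * 1 [MOD p] := by
    rw [mul_one, ← pow_add]
    have e3 : k' + 2 * d = k := by omega
    rw [e3, ← hza, ← hzb]
    exact hmod
  have h2 : q ^ (2 * d) ≡ 1 [MOD p] := Nat.ModEq.cancel_left_of_coprime hcop h1
  have h2' : ((q ^ (2 * d) : ℕ) : ℤ) ≡ ((1 : ℕ) : ℤ) [ZMOD p] := Int.natCast_modEq_iff.mpr h2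
  have h3 : (p : ℤ) ∣ ((q : ℤ) ^ d - 1) * ((q : ℤ) ^ d + 1) := by
    have h4 := h2'.dvd
    push_cast at h4
    have h5 : ((q : ℤ) ^ d - 1) * ((q : ℤ) ^ d + 1) = -(1 - (q : ℤ) ^ (2 * d)) := by ring
    rw [h5]
    exact (dvd_neg).mpr h4
  have hpZ : Prime (p : ℤ) := Nat.prime_iff_prime_int.mp hp
  refine ⟨q ^ d, ⟨q, d, hq.prime, by omega, rfl⟩, ?_, ?_⟩
  · exact dvd_trans (pow_dvd_pow q (by omega : d ≤ m)) han
  · rcases hpZ.dvd_or_dvd h3 with h | h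
    · right; right
      rw [Int.modEq_iff_dvd]
      push_cast
      have e4 : (1 : ℤ) - (q : ℤ) ^ d = -((q : ℤ) ^ d - 1) := by ring
      rw [e4]
      exact (dvd_neg).mpr h
    · left
      rw [Int.modEq_iff_dvd]
      push_cast
      have e4 : (-1 : ℤ) - (q : ℤ) ^ d = -((q : ℤ) ^ d + 1) := by ring
      rw [e4]
      exact (dvd_neg).mpr h

end Cfsg.Agent.Lib.Helper67.WinARI
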