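import Mathlib
import Cfsg.Agent.Lib.Helper74.WinStmt

/-! # S4467 piece ORB (helper67) -/

set_option autoImplicit false

namespace Cfsg.Agent.Lib.Helper67.WinORB

open Cfsg.Agent.Lib.Helper74.WinStmt

universe u

theorem main : Orb.{u} := by
  intro G _ _ p hp U hU x hx
  haveI : Fact p.Prime := ⟨hp⟩
  haveI := hU
  letI : MulAction ↥(Subgroup.zpowers x) ↥U :=
    MulAction.compHom ↥U ((MulAut.conjNormal (H := U)).comp (Subgroup.zpowers x).subtype)
  have hsmul : ∀ (g : ↥(Subgroup.zpowers x)) (u : ↥U),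
      ((g • u : ↥U) : G) = (g : G) * u * (g : G)⁻¹ := by
    intro g u
    exact MulAut.conjNormal_apply (g : G) u
  have h1 := hx.card_modEq_card_fixedPoints (α := ↥U)
  have h2 : Nat.card ↥(MulAction.fixedPoints ↥(Subgroup.zpowers x) ↥U)
      = Nat.card ↥(U ⊓ Subgroup.centralizer {x} : Subgroup G) := by
    apply Nat.card_congr
    refine ⟨fun u => ⟨(u.1 : G), ?_⟩, fun c => ⟨⟨(c : G), (Subgroup.mem_inf.mp c.2).1⟩, ?_⟩,
      ?_, ?_⟩
    · refine Subgroup.mem_inf.mpr ⟨u.1.2, ?_⟩
      rw [Subgroup.mem_centralizer_iff]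
      intro y hy
      rw [Set.mem_singleton_iff] at hy
      subst hy
      have h3 := u.2 ⟨y, Subgroup.mem_zpowers y⟩
      have h4 := congrArg (fun t : ↥U => (t : G)) h3
      simp only [hsmul] at h4
      calc y * (u.1 : G) = y * u.1 * y⁻¹ * y := by group
        _ = u.1 * y := by rw [h4]
    · intro g
      apply Subtype.ext
      rw [hsmul]
      have hc : (c : G) ∈ Subgroup.centralizer {x} := (Subgroup.mem_inf.mp c.2).2
      have hle : Subgroup.zpowers x ≤ Subgroup.centralizer {(c : G)} := by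
        rw [Subgroup.zpowers_le, Subgroup.mem_centralizer_iff]
        intro y hy
        rw [Set.mem_singleton_iff] at hy
        subst hy
        exact ((Subgroup.mem_centralizer_iff.mp hc) x rfl).symm
      have h5 := (Subgroup.mem_centralizer_iff.mp (hle g.2)) (c : G) rfl
      show (g : G) * (c : G) * (g : G)⁻¹ = (c : G)
      rw [← h5, mul_inv_cancel_right]
    · intro u; rfl
    · intro c; rfl
  rw [← h2]
  exact h1

end Cfsg.Agent.Lib.Helper67.WinORB
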