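import Mathlib
import Cfsg.Agent.Lib.Helper74.WinStmt
import Cfsg.Agent.Lib.CT.NormOne
import Cfsg.Agent.Lib.CT.Ops
import Cfsg.Agent.Lib.CT.Kernel
import Cfsg.Agent.Lib.CT.Wedderburn
import Cfsg.Agent.Lib.Helper3.TDBasic

/-! # S4467 piece R1 (helper67, second seat) -/

set_option autoImplicit false

namespace Cfsg.Agent.Lib.Helper67.WinR1

open Cfsg Cfsg.Agent.Lib.Helper74.WinStmt
open Cfsg.Agent.Lib.CT Cfsg.Agent.Lib.CT.Wedderburn

universe u

theorem main : R1.{u} := by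
  intro G _ _ χ hfaith p hp N hN hQ hW
  classical
  haveI : Fact p.Prime := ⟨hp⟩
  haveI := hN
  haveI : Fintype G := Fintype.ofFinite G
  haveI : Fintype ↥N := Fintype.ofFinite ↥N
  haveI := finite_irrCharacter ↥N
  haveI : Fintype (IrrCharacter ↥N) := Fintype.ofFinite _
  obtain ⟨Q, hQn⟩ := hQ
  have hχN : IsCharacter ↥N (fun n : ↥N => (χ : G → ℂ) n) :=
    Ops.isCharacter_restrict N (isCharacter_of_irr χ.2)
  obtain ⟨m, hm, hexp⟩ := NormOne.exists_mult_sum hχN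
  choose Kf hKn hKmem using fun θ : IrrCharacter ↥N =>
    Kernel.exists_normal_ker (isCharacter_of_irr θ.2)
  haveI : ∀ θ : IrrCharacter ↥N, (Kf θ).Normal := hKn
  have hker : ∀ y : ↥N, (∀ θ : IrrCharacter ↥N, m θ ≠ 0 → y ∈ Kf θ) → y = 1 := by
    intro y hy
    have h1 := congrFun hexp y
    have h2 := congrFun hexp 1
    rw [Finset.sum_apply] at h1 h2
    simp only [Pi.smul_apply, smul_eq_mul] at h1 h2
    have h3 : (χ : G → ℂ) (y : G) = (χ : G → ℂ) ((1 : ↥N) : G) := by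
      rw [h1, h2]
      refine Finset.sum_congr rfl fun θ _ => ?_
      by_cases hθ : m θ = 0
      · rw [hθ]; simp
      · rw [(hKmem θ y).mp (hy θ hθ)]
    have h4 : (y : G) = 1 := hfaith _ (by rw [h3]; rfl)
    exact Subtype.ext h4
  have hex : ∃ θ : IrrCharacter ↥N, m θ ≠ 0 ∧
      ∃ Q' : Sylow p (↥N ⧸ Kf θ), ¬ (Q' : Subgroup (↥N ⧸ Kf θ)).Normal := by
    by_contra hcon
    apply hQn
    have hall : ∀ θ : IrrCharacter ↥N, m θ ≠ 0 →
        ∀ Q' : Sylow p (↥N ⧸ Kf θ), (Q' : Subgroup (↥N ⧸ Kf θ)).Normal := by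
      intro θ hθ Q'
      by_contra h
      exact hcon ⟨θ, hθ, Q', h⟩
    let J : Subgroup ↥N := ⨅ θ : {θ : IrrCharacter ↥N // m θ ≠ 0},
      ((Q : Subgroup ↥N).map (QuotientGroup.mk' (Kf θ.1))).comap (QuotientGroup.mk' (Kf θ.1))
    have hJn : J.Normal := by
      apply Subgroup.normal_iInf_normal
      intro θ
      have h5 := hall θ.1 θ.2 (Q.mapSurjective (QuotientGroup.mk'_surjective (Kf θ.1)))
      rw [Sylow.coe_mapSurjective] at h5
      exact Subgroup.Normal.comap h5 _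
    have hQJ : (Q : Subgroup ↥N) ≤ J := by
      intro g hg
      simp only [J, Subgroup.mem_iInf, Subgroup.mem_comap]
      intro θ
      exact Subgroup.mem_map_of_mem _ hg
    have hJp : IsPGroup p ↥J := by
      obtain ⟨k, hk⟩ := (IsPGroup.iff_card.mp Q.isPGroup')
      intro j
      refine ⟨k, ?_⟩
      apply Subtype.ext
      rw [Subgroup.coe_pow, Subgroup.coe_one]
      apply hker
      intro θ hθ
      have hj : (j : ↥N) ∈ ((Q : Subgroup ↥N).map (QuotientGroup.mk' (Kf θ))).comap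
          (QuotientGroup.mk' (Kf θ)) := by
        have h6 := j.2
        simp only [J, Subgroup.mem_iInf] at h6
        exact h6 ⟨θ, hθ⟩
      rw [Subgroup.mem_comap, Subgroup.mem_map] at hj
      obtain ⟨g, hg, hgj⟩ := hj
      have hg1 : g ^ p ^ k = 1 := by
        have h7 := pow_card_eq_one' (G := ↥(Q : Subgroup ↥N)) (x := ⟨g, hg⟩)
        rw [hk] at h7
        exact congrArg (fun t : ↥(Q : Subgroup ↥N) => (t : ↥N)) h7
      rw [← QuotientGroup.eq_one_iff, QuotientGroup.mk_pow]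
      have h8 : ((j : ↥N) : ↥N ⧸ Kf θ) = ((g : ↥N) : ↥N ⧸ Kf θ) := hgj.symm
      rw [h8, ← QuotientGroup.mk_pow, hg1, QuotientGroup.mk_one]
    have hJQ : J = (Q : Subgroup ↥N) := Q.is_maximal' hJp hQJ
    rw [← hJQ]
    exact hJn
  obtain ⟨θ, hθ, Q', hQ'⟩ := hex
  obtain ⟨θbar, hθbar, hθbar_apply⟩ :=
    Kernel.exists_quotient_irr (Kf θ) θ.2 (fun n hn => (hKmem θ n).mp hn)
  have hfaith' : Faithful θbar := by
    intro xq hx
    obtain ⟨n, rfl⟩ := QuotientGroup.mk_surjective xq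
    have h1 : (θ : ↥N → ℂ) n = (θ : ↥N → ℂ) 1 := by
      rw [← hθbar_apply n, ← hθbar_apply 1]
      exact hx
    exact (QuotientGroup.eq_one_iff n).mpr ((hKmem θ n).mpr h1)
  have hgood := hW (Kf θ) ⟨θbar, hθbar⟩ hfaith' ⟨Q', hQ'⟩
  have hdeg : charDegree θbar = charDegree (θ : ↥N → ℂ) := by
    unfold charDegree
    rw [← hθbar_apply 1]
    rfl
  have hcon : classInner (fun n : ↥N => (χ : G → ℂ) n) (θ : ↥N → ℂ) ≠ 0 := by
    rw [hm θ]
    exact_mod_cast hθ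
  have hdvd := (Cfsg.Agent.Lib.Helper3.TDBasic.deg_of_constituent N θ χ hcon).1
  obtain ⟨q, hq, hqd, hqm⟩ := hgood
  exact ⟨q, hq, (by rw [← hdeg]; exact hqd : q ∣ charDegree (θ : ↥N → ℂ)).trans hdvd, hqm⟩

end Cfsg.Agent.Lib.Helper67.WinR1
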